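import Cfsg.Agent.H204.RI.Trans

/-!
# The alternating groups of degree at least seven (helper204, for S3126)
-/

set_option autoImplicit false
set_option linter.unusedSectionVars false

namespace Cfsg.Agent.H204.RI

open Subgroup Equiv

section alt

variable {α : Type*} [Fintype α] [DecidableEq α]

theorem swap_conj' (g : Perm α) (x y : α) : g * swap x y * g⁻¹ = swap (g x) (g y) := by
  rw [Equiv.mul_swap_eq_swap_mul, mul_inv_cancel_right]

/-- an even involution moves four points -/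
theorem exists_four {d : Perm α} (hd : d * d = 1) (h1 : d ≠ 1) (hs : Perm.sign d = 1) :
    ∃ x y : α, d x ≠ x ∧ d y ≠ y ∧ y ≠ x ∧ y ≠ d x ∧ d y ≠ x ∧ d y ≠ d x := by
  have hdd : ∀ x, d (d x) = x := fun x => by
    have := congrArg (fun f : Perm α => f x) hd
    simpa using this
  obtain ⟨x, hx⟩ : ∃ x, d x ≠ x := by
    by_contra h
    push Not at h
    exact h1 (Equiv.ext h)
  by_contra hcon
  push Not at hcon
  have key : d = swap x (d x) := by
    ext z
    by_cases hz : z = x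
    · rw [hz, swap_apply_left]
    by_cases hz2 : z = d x
    · rw [hz2, swap_apply_right, hdd]
    rw [swap_apply_of_ne_of_ne hz hz2]
    by_contra hz3
    have h5 : d z ≠ x := by
      intro h
      apply hz2
      rw [← h, hdd]
    exact hz (d.injective (hcon x z hx hz3 hz hz2 h5))
  rw [key, Perm.sign_swap (Ne.symm hx)] at hs
  exact absurd hs (by decide)

theorem mem_alt_two {x1 x2 x3 x4 : α} (h1 : x1 ≠ x2) (h2 : x3 ≠ x4) :
    swap x1 x2 * swap x3 x4 ∈ alternatingGroup α := by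
  rw [Perm.mem_alternatingGroup, map_mul, Perm.sign_swap h1, Perm.sign_swap h2]
  decide

/-- `(1 2)(3 4) ∈ D` -/
theorem exists_two {D : Set (alternatingGroup α)} (h : WC D) (hne : D.Nonempty) :
    ∃ x1 x2 x3 x4 : α, ∃ h1 : x1 ≠ x2, ∃ h2 : x3 ≠ x4, x1 ≠ x3 ∧ x1 ≠ x4 ∧ x2 ≠ x3 ∧ x2 ≠ x4 ∧
      (⟨_, mem_alt_two h1 h2⟩ : alternatingGroup α) ∈ D := by
  obtain ⟨d, hd⟩ := hne
  have hdd : (d : Perm α) * d = 1 := congrArg Subtype.val (h.sq hd)
  have hdd' : ∀ x, (d : Perm α) ((d : Perm α) x) = x := fun x => by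
    have := congrArg (fun f : Perm α => f x) hdd
    simpa using this
  obtain ⟨x, y, h1, h2, h3, h4, h5, h6⟩ := exists_four hdd (fun h1 => h.ne_one hd (Subtype.ext h1)) (Perm.mem_alternatingGroup.1 d.2)
  set d0 : Perm α := (d : Perm α) with hd0
  -- `x1 = x`, `x2 = d x`, `x3 = y`, `x4 = d y`
  have hinv : d0⁻¹ = d0 := inv_eq_of_mul_eq_one_left hdd
  let s : Perm α := swap (d0 x) y
  let g : Perm α := s * swap x (d0 x)
  have hg : g ∈ alternatingGroup α := mem_alt_two (Ne.symm h4) (Ne.symm h1)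
  have hsd : swap x (d0 x) * d0 * (swap x (d0 x))⁻¹ = d0 := by
    have h7 := swap_conj' d0 x (d0 x)
    rw [hdd', swap_comm (d0 x) x] at h7
    rw [mul_inv_eq_iff_eq_mul]
    rw [mul_inv_eq_iff_eq_mul] at h7
    exact h7.symm
  have hgd : g * d0 * g⁻¹ = s * d0 * s := by
    have e : g * d0 * g⁻¹ = s * (swap x (d0 x) * d0 * (swap x (d0 x))⁻¹) * s⁻¹ := by
      show s * swap x (d0 x) * d0 * (s * swap x (d0 x))⁻¹ = _
      group
    rw [e, hsd, swap_inv]
  have hD1 := h.conj d hd ⟨g, hg⟩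
  set d' : alternatingGroup α := ⟨g, hg⟩ * d * ⟨g, hg⟩⁻¹ with hd'
  have hd'v : (d' : Perm α) = s * d0 * s := hgd
  -- the product
  have hp : d0 * (s * d0 * s) = swap x (d0 y) * swap (d0 x) y := by
    have e : d0 * (s * d0 * s) = (d0 * s * d0⁻¹) * s := by rw [hinv]; group
    rw [e]
    show d0 * swap (d0 x) y * d0⁻¹ * swap (d0 x) y = _
    rw [swap_conj', hdd']
  have hp2 : (s * d0 * s) * d0 = swap x (d0 y) * swap (d0 x) y := by
    have e : (s * d0 * s) * d0 = s * (d0 * s * d0⁻¹) := by rw [hinv]; group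
    rw [e]
    show swap (d0 x) y * (d0 * swap (d0 x) y * d0⁻¹) = _
    rw [swap_conj', hdd']
    have hdisj : Perm.Disjoint (swap (d0 x) y) (swap x (d0 y)) := by
      intro z
      by_cases hz : z = d0 x
      · right
        rw [hz, swap_apply_of_ne_of_ne h1 (Ne.symm h6)]
      by_cases hz2 : z = y
      · right
        rw [hz2, swap_apply_of_ne_of_ne h3 (Ne.symm h2)]
      left
      rw [swap_apply_of_ne_of_ne hz hz2]
    exact hdisj.commute
  have hne' : d ≠ d' := by
    intro hh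
    have h8 : d0 * (s * d0 * s) = 1 := by
      rw [← hd'v, ← hh]; exact hdd
    rw [hp] at h8
    have h9 := congrArg (fun f : Perm α => f x) h8
    simp only [Perm.mul_apply, Perm.one_apply] at h9
    rw [swap_apply_of_ne_of_ne (Ne.symm h1) (Ne.symm h3), swap_apply_left] at h9
    exact h5 h9
  have hc : Commute d d' := Subtype.ext (by
    show d0 * (d' : Perm α) = (d' : Perm α) * d0
    rw [hd'v, hp, hp2])
  have hD2 := h.mul d hd d' hD1 hne' hc
  refine ⟨x, d0 y, d0 x, y, Ne.symm h5, Ne.symm h4, Ne.symm h1, Ne.symm h3, h6, h2, ?_⟩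
  convert hD2 using 1
  apply Subtype.ext
  show swap x (d0 y) * swap (d0 x) y = d0 * (d' : Perm α)
  rw [hd'v, hp]

theorem alt_false {D : Set (alternatingGroup α)} (h : WC D) (hne : D.Nonempty) (h7 : 7 ≤ Fintype.card α) : False := by
  obtain ⟨y1, y2, y3, y4, n12, n34, n13, n14, n23, n24, hD⟩ := exists_two h hne
  have hex : ∀ s : Finset α, s.card < 7 → ∃ x, x ∉ s := by
    intro s hs
    by_contra hcon
    push Not at hcon
    have h1 : s = Finset.univ := Finset.eq_univ_of_forall hcon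
    rw [h1, Finset.card_univ] at hs
    omega
  obtain ⟨y5, hy5⟩ := hex {y1, y2, y3, y4} (by
    refine lt_of_le_of_lt (Finset.card_le_four) (by norm_num))
  obtain ⟨y6, hy6⟩ := hex {y1, y2, y3, y4, y5} (by
    refine lt_of_le_of_lt (Finset.card_le_five) (by norm_num))
  obtain ⟨y7, hy7⟩ := hex {y1, y2, y3, y4, y5, y6} (by
    refine lt_of_le_of_lt (Finset.card_le_six) (by norm_num))
  simp only [Finset.mem_insert, Finset.mem_singleton, not_or] at hy5 hy6 hy7
  obtain ⟨a1, a2, a3, a4⟩ := hy5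
  obtain ⟨b1, b2, b3, b4, b5⟩ := hy6
  obtain ⟨c1, c2, c3, c4, c5, c6⟩ := hy7
  -- conjugates of `(1 2)(3 4)`
  have hcj : ∀ (x y : α) (hxy : x ≠ y), x ≠ y1 → x ≠ y2 → x ≠ y3 → x ≠ y4 → y ≠ y1 → y ≠ y2 → y ≠ y3 → y ≠ y4 →
      (⟨_, mem_alt_two n12 hxy⟩ : alternatingGroup α) ∈ D := by
    intro x y hxy e1 e2 e3 e4 f1 f2 f3 f4
    have hg : swap y3 x * swap y4 y ∈ alternatingGroup α := mem_alt_two (Ne.symm e3) (Ne.symm f4)
    have h1 := h.conj _ hD ⟨_, hg⟩
    convert h1 using 1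
    apply Subtype.ext
    show swap y1 y2 * swap x y = swap y3 x * swap y4 y * (swap y1 y2 * swap y3 y4) * (swap y3 x * swap y4 y)⁻¹
    have e : swap y3 x * swap y4 y * (swap y1 y2 * swap y3 y4) * (swap y3 x * swap y4 y)⁻¹ =
        (swap y3 x * swap y4 y * swap y1 y2 * (swap y3 x * swap y4 y)⁻¹) *
          (swap y3 x * swap y4 y * swap y3 y4 * (swap y3 x * swap y4 y)⁻¹) := by group
    rw [e, swap_conj', swap_conj']
    simp only [Perm.mul_apply]
    rw [swap_apply_of_ne_of_ne n14 (Ne.symm f1), swap_apply_of_ne_of_ne n13 (Ne.symm e1),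
      swap_apply_of_ne_of_ne n24 (Ne.symm f2), swap_apply_of_ne_of_ne n23 (Ne.symm e2),
      swap_apply_of_ne_of_ne n34 (Ne.symm f3), swap_apply_left, swap_apply_left,
      swap_apply_of_ne_of_ne f3 (Ne.symm hxy)]
  have hA := hcj y5 y6 (Ne.symm b5) a1 a2 a3 a4 b1 b2 b3 b4
  have hB := hcj y5 y7 (Ne.symm c5) a1 a2 a3 a4 c1 c2 c3 c4
  have hdisj : ∀ {u v w z : α}, u ≠ w → u ≠ z → v ≠ w → v ≠ z → Commute (swap u v) (swap w z) := by
    intro u v w z e1 e2 e3 e4
    refine Perm.Disjoint.commute fun x => ?_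
    by_cases hx : x = u
    · right; rw [hx, swap_apply_of_ne_of_ne e1 e2]
    by_cases hx2 : x = v
    · right; rw [hx2, swap_apply_of_ne_of_ne e3 e4]
    left
    rw [swap_apply_of_ne_of_ne hx hx2]
  have k1 : Commute (swap y1 y2) (swap y5 y6) := hdisj (Ne.symm a1) (Ne.symm b1) (Ne.symm a2) (Ne.symm b2)
  have k2 : Commute (swap y1 y2) (swap y5 y7) := hdisj (Ne.symm a1) (Ne.symm c1) (Ne.symm a2) (Ne.symm c2)
  have k3 : Commute (swap y3 y4) (swap y5 y6) := hdisj (Ne.symm a3) (Ne.symm b3) (Ne.symm a4) (Ne.symm b4)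
  have k4 : Commute (swap y3 y4) (swap y5 y7) := hdisj (Ne.symm a3) (Ne.symm c3) (Ne.symm a4) (Ne.symm c4)
  have k5 : Commute (swap y1 y2) (swap y3 y4) := hdisj n13 n14 n23 n24
  have hcA : Commute (⟨_, mem_alt_two n12 (Ne.symm b5)⟩ : alternatingGroup α) ⟨_, mem_alt_two n12 n34⟩ :=
    Subtype.ext (((Commute.refl _).mul_right k5).mul_left (k1.symm.mul_right k3.symm)).eq
  have hcB : Commute (⟨_, mem_alt_two n12 (Ne.symm c5)⟩ : alternatingGroup α) ⟨_, mem_alt_two n12 n34⟩ :=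
    Subtype.ext (((Commute.refl _).mul_right k5).mul_left (k2.symm.mul_right k4.symm)).eq
  have h9 := h.eq_of_odd hD hA hB hcA hcB (n := 3) (by decide) (Subtype.ext (by
    show (swap y1 y2 * swap y5 y6 * (swap y1 y2 * swap y5 y7)) ^ 3 = 1
    have e : swap y1 y2 * swap y5 y6 * (swap y1 y2 * swap y5 y7) = swap y5 y6 * swap y5 y7 := by
      calc swap y1 y2 * swap y5 y6 * (swap y1 y2 * swap y5 y7)
          = swap y1 y2 * (swap y5 y6 * swap y1 y2) * swap y5 y7 := by group
        _ = swap y1 y2 * (swap y1 y2 * swap y5 y6) * swap y5 y7 := by rw [k1.eq]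
        _ = swap y5 y6 * swap y5 y7 := by rw [← mul_assoc, swap_mul_self, one_mul]
    rw [e]
    have h3 := Perm.isThreeCycle_swap_mul_swap_same (Ne.symm b5) (Ne.symm c5) (Ne.symm c6)
    rw [← h3.orderOf]
    exact pow_orderOf_eq_one _))
  have h10 := congrArg Subtype.val h9
  have h11 : swap y5 y6 = swap y5 y7 := mul_left_cancel h10
  have h12 := congrArg (fun f : Perm α => f y5) h11
  simp only [swap_apply_left] at h12
  exact c6 h12.symm

end alt

theorem Full.alt_cases {G : Type*} [Group G] {D : Set G} (F : Full D) (hG : Cfsg.IsAlternating G) :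
    Nonempty (G ≃* alternatingGroup (Fin 5)) ∨ Nonempty (G ≃* alternatingGroup (Fin 6)) := by
  obtain ⟨n, hn, ⟨e⟩⟩ := hG
  by_cases h5 : n = 5
  · subst h5; exact Or.inl ⟨e⟩
  by_cases h6 : n = 6
  · subst h6; exact Or.inr ⟨e⟩
  exfalso
  have F' := F.map_equiv e
  exact alt_false F'.toWC F'.ne (by rw [Fintype.card_fin]; omega)

end Cfsg.Agent.H204.RI
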