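import Cfsg.Agent.H204.RI.Reduce
import Cfsg.Agent.Involutions.BaerSuzuki

/-!
# The commuting geometry of `D` (helper204, for S3126)

* `Full.Wc_eq` : for commuting `y`, `a ∈ D` with `W(y) ≠ W(a)` the elements of `D ∩ C(y) ∩ C(a)` commute;
* `Full.no_rank_three` : `G` is not generated by `P k` such that for `i`, `k` there is an abelian group containing
  `z ∈ D` and normalised by `P i`, `P k`;
* `Full.no_diam_two` : two members of `D` need not commute with a common member of `D`.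
-/

set_option autoImplicit false
set_option linter.unusedSectionVars false

namespace Cfsg.Agent.H204.RI

open Subgroup
open scoped commutatorElement

variable {G : Type*} [Group G] {D : Set G}

theorem WC.Wc_conj (h : WC D) (g d : G) : Wc D (g * d * g⁻¹) = (Wc D d).map (MulAut.conj g).toMonoidHom := by
  have key : ∀ (g d : G), (Wc D d).map (MulAut.conj g).toMonoidHom ≤ Wc D (g * d * g⁻¹) := by
    intro g d
    unfold Wc
    rw [MonoidHom.map_closure, Subgroup.closure_le]
    rintro _ ⟨y, ⟨hy, hyd⟩, rfl⟩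
    refine Subgroup.subset_closure ⟨h.conj y hy g, ?_⟩
    show g * y * g⁻¹ * (g * d * g⁻¹) = g * d * g⁻¹ * (g * y * g⁻¹)
    calc g * y * g⁻¹ * (g * d * g⁻¹) = g * (y * d) * g⁻¹ := by group
      _ = g * (d * y) * g⁻¹ := by rw [hyd.eq]
      _ = _ := by group
  refine le_antisymm ?_ (key g d)
  intro x hx
  have h1 := key g⁻¹ (g * d * g⁻¹) (Subgroup.mem_map_of_mem _ hx)
  have e : g⁻¹ * (g * d * g⁻¹) * g⁻¹⁻¹ = d := by group
  rw [e] at h1
  refine ⟨_, h1, ?_⟩
  show g * (g⁻¹ * x * g⁻¹⁻¹) * g⁻¹ = x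
  group

theorem WC.card_Wc_conj (h : WC D) (g d : G) : Nat.card (Wc D (g * d * g⁻¹)) = Nat.card (Wc D d) := by
  rw [h.Wc_conj]
  exact (Nat.card_congr ((Wc D d).equivMapOfInjective _ (MulAut.conj g).injective).toEquiv).symm

namespace Full

variable (F : Full D)
include F

theorem card_Wc {y a : G} (hy : y ∈ D) (ha : a ∈ D) : Nat.card (Wc D y) = Nat.card (Wc D a) := by
  obtain ⟨g, hg⟩ := F.cls y hy a ha
  rw [← hg, F.toWC.card_Wc_conj]

/-- `e ∈ D` commuting with `D ∩ C(y)` -/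
theorem Wc_eq_of_comm [Finite G] {y e : G} (hy : y ∈ D) (he : e ∈ D) (hc : ∀ w ∈ Wc D y, e * w = w * e) :
    Wc D y = Wc D e := by
  have h1 : Wc D y ≤ Wc D e := by
    conv_lhs => unfold Wc
    rw [Subgroup.closure_le]
    rintro x ⟨hx, hxy⟩
    exact mem_Wc hx (hc x (mem_Wc hx hxy)).symm
  exact Subgroup.eq_of_le_of_card_ge h1 (F.card_Wc he hy).le

/-- the members of `D` commuting with two collinear points commute -/
theorem comm_of_line [Finite G] {y a b c : G} (hy : y ∈ D) (ha : a ∈ D) (hne : Wc D y ≠ Wc D a) (hb : b ∈ D)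
    (hc : c ∈ D) (hby : b * y = y * b) (hba : b * a = a * b) (hcy : c * y = y * c) (hca : c * a = a * c) :
    b * c = c * b := by
  by_contra hcon
  have h1 : ⁅b, c⁆ ≠ 1 := fun h => hcon (commutatorElement_eq_one_iff_mul_comm.1 h)
  have h2 : ⁅b, c⁆ ∈ D := (F.comm_mem hy hb hc hby hcy).resolve_left h1
  have h3 : ⁅b, c⁆ ∈ ⁅Wc D y, Wc D y⁆ := commutator_mem_commutator (mem_Wc hb hby) (mem_Wc hc hcy)
  have h4 : ⁅b, c⁆ ∈ ⁅Wc D a, Wc D a⁆ := commutator_mem_commutator (mem_Wc hb hba) (mem_Wc hc hca)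
  apply hne
  rw [F.Wc_eq_of_comm hy h2 fun w hw => F.comm_of_der hy h3 hw,
    F.Wc_eq_of_comm ha h2 fun w hw => F.comm_of_der ha h4 hw]

/-- no nontrivial normal subgroup commutes with `z ∈ D` -/
theorem not_normal [IsSimpleGroup G] {z : G} (hz : z ∈ D) {N : Subgroup G} (hN : N.Normal) (h1 : z ∈ N)
    (h2 : ∀ x ∈ N, x * z = z * x) : False := by
  rcases hN.eq_bot_or_eq_top with h | h
  · rw [h, mem_bot] at h1
    exact F.toWC.ne_one hz h1
  · have h3 : z ∈ center G := mem_center_iff.2 fun g => h2 g (h ▸ mem_top g)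
    rw [F.cen, mem_bot] at h3
    exact F.toWC.ne_one hz h3

/-- **no geometry of rank three** -/
theorem no_rank_three [Finite G] [IsSimpleGroup G] {z : G} (hz : z ∈ D) {κ : Type*} (P : κ → Subgroup G)
    (hgen : ⨆ k, P k = ⊤)
    (hpair : ∀ i k, ∃ V : Subgroup G, z ∈ V ∧ (∀ x ∈ V, ∀ y ∈ V, x * y = y * x) ∧ P i ≤ normalizer (V : Set G) ∧
      P k ≤ normalizer (V : Set G)) : False := by
  by_cases hall : ∀ k, P k ≤ normalizer (Wc D z : Set G)
  · have h1 : normalizer (Wc D z : Set G) = ⊤ := by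
      rw [eq_top_iff, ← hgen]
      exact iSup_le hall
    have h2 : (Wc D z).Normal := normalizer_eq_top_iff.1 h1
    exact F.not_normal hz h2 (F.toWC.self_mem hz) fun x hx => (Wc_comm hx).eq
  push Not at hall
  obtain ⟨i, hi⟩ := hall
  obtain ⟨g, hg, hgn⟩ := SetLike.not_le_iff_exists.1 hi
  set a := g * z * g⁻¹ with ha
  have haD : a ∈ D := F.conj z hz g
  have hne : Wc D z ≠ Wc D a := by
    intro h1
    apply hgn
    rw [ha, F.toWC.Wc_conj] at h1
    rw [mem_normalizer_iff]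
    intro x
    constructor
    · intro hx
      show g * x * g⁻¹ ∈ Wc D z
      rw [h1]
      exact ⟨x, hx, rfl⟩
    · intro hx
      have hx' : g * x * g⁻¹ ∈ Wc D z := hx
      rw [h1] at hx'
      obtain ⟨y, hy, hyx⟩ := hx'
      have hyx' : g * y * g⁻¹ = g * x * g⁻¹ := hyx
      have : y = x := by
        have := mul_right_cancel hyx'
        exact mul_left_cancel this
      rw [← this]; exact hy
  -- the line
  set A : Set G := {x | x ∈ D ∧ x * z = z * x ∧ x * a = a * x} with hA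
  have hAc : ∀ x ∈ A, ∀ y ∈ A, x * y = y * x := fun x hx y hy =>
    F.comm_of_line hz haD hne hx.1 hy.1 hx.2.1 hx.2.2 hy.2.1 hy.2.2
  have hconj : ∀ k, ∀ p ∈ P k, ∀ x ∈ A, p * x * p⁻¹ ∈ A := by
    intro k p hp x hx
    obtain ⟨V, hzV, hVc, hVi, hVk⟩ := hpair i k
    have haV : a ∈ V := (mem_normalizer_iff.1 (hVi hg) z).1 hzV
    have hz' : p * z * p⁻¹ ∈ V := (mem_normalizer_iff.1 (hVk hp) z).1 hzV
    have ha' : p * a * p⁻¹ ∈ V := (mem_normalizer_iff.1 (hVk hp) a).1 haV
    have hne' : Wc D (p * z * p⁻¹) ≠ Wc D (p * a * p⁻¹) := by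
      rw [F.toWC.Wc_conj, F.toWC.Wc_conj]
      intro h1
      exact hne (Subgroup.map_injective (MulAut.conj p).injective h1)
    have hcc : ∀ {u v : G}, u * v = v * u → p * u * p⁻¹ * (p * v * p⁻¹) = p * v * p⁻¹ * (p * u * p⁻¹) := by
      intro u v huv
      calc p * u * p⁻¹ * (p * v * p⁻¹) = p * (u * v) * p⁻¹ := by group
        _ = p * (v * u) * p⁻¹ := by rw [huv]
        _ = _ := by group
    refine ⟨F.conj x hx.1 p, ?_, ?_⟩
    · exact F.comm_of_line (F.conj z hz p) (F.conj a haD p) hne' (F.conj x hx.1 p) hz (hcc hx.2.1) (hcc hx.2.2)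
        (hVc _ hzV _ hz') (hVc _ hzV _ ha')
    · exact F.comm_of_line (F.conj z hz p) (F.conj a haD p) hne' (F.conj x hx.1 p) haD (hcc hx.2.1) (hcc hx.2.2)
        (hVc _ haV _ hz') (hVc _ haV _ ha')
  have hz1 : z ∈ A := by
    refine ⟨hz, rfl, ?_⟩
    obtain ⟨V, hzV, hVc, hVi, -⟩ := hpair i i
    exact hVc _ hzV _ ((mem_normalizer_iff.1 (hVi hg) z).1 hzV)
  have hnorm : ∀ k, P k ≤ normalizer (closure A : Set G) := by
    intro k
    have hle : ∀ p ∈ P k, ∀ x ∈ closure A, p * x * p⁻¹ ∈ closure A := by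
      intro p hp x hx
      have : closure A ≤ (closure A).comap (MulAut.conj p).toMonoidHom := by
        rw [closure_le]
        intro y hy
        exact subset_closure (hconj k p hp y hy)
      exact this hx
    intro p hp
    rw [mem_normalizer_iff]
    intro x
    refine ⟨hle p hp x, fun hx => ?_⟩
    have h1 := hle p⁻¹ (inv_mem hp) _ hx
    have e : p⁻¹ * (p * x * p⁻¹) * p⁻¹⁻¹ = x := by group
    rwa [e] at h1
  have h1 : normalizer (closure A : Set G) = ⊤ := by
    rw [eq_top_iff, ← hgen]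
    exact iSup_le hnorm
  have h2 : (closure A).Normal := normalizer_eq_top_iff.1 h1
  refine F.not_normal hz h2 (subset_closure hz1) fun x hx => ?_
  have h3 : closure A ≤ centralizer ({z} : Set G) := by
    rw [closure_le]
    intro y hy
    exact mem_centralizer_singleton_iff.2 hy.2.1
  exact mem_centralizer_singleton_iff.1 (h3 hx)

/-- **the commuting graph of `D` does not have diameter two** -/
theorem no_diam_two [Finite G] [IsSimpleGroup G]
    (hd : ∀ y ∈ D, ∀ a ∈ D, ∃ b ∈ D, y * b = b * y ∧ a * b = b * a) : False := by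
  have hfact : Fact (Nat.Prime 2) := ⟨Nat.prime_two⟩
  have h1 : IsPGroup 2 (closure D) := by
    refine Involutions.BaerSuzuki.baer_suzuki_set (fun g x hx => F.conj x hx g) fun y hy a ha => ?_
    obtain ⟨b, hb, hyb, hab⟩ := hd y hy a ha
    refine (F.two b hb).to_le ?_
    rw [closure_le]
    rintro x (rfl | rfl)
    · exact mem_Wc hy hyb
    · exact mem_Wc ha hab
  rw [F.gen] at h1
  obtain ⟨z, hz⟩ := F.ne
  have hnt : Nontrivial G := ⟨z, 1, F.toWC.ne_one hz⟩
  have h2 : IsPGroup 2 G := h1.of_equiv Subgroup.topEquiv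
  have h3 := h2.center_nontrivial
  rw [F.cen] at h3
  exact not_subsingleton_iff_nontrivial.2 h3 inferInstance

end Full

end Cfsg.Agent.H204.RI
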