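import Cfsg.Agent.H204.RI.LongHom
import Cfsg.Agent.OddHalf.LongSL.Exc
import Cfsg.Agent.OddHalf.LieOddFam
import Cfsg.Agent.H204.RI.Trans

/-!
# `G₂(3)`, `F₄(3)`, `E_n(3)` (helper204, for S3126)
-/

set_option autoImplicit false
set_option linter.unusedSectionVars false

namespace Cfsg.Agent.H204.RI

open Cfsg Cfsg.Lie Cfsg.Lie.ChevalleyDatum
open Cfsg.Agent.ChevalleyStructure Cfsg.Agent.ChevalleyStructure.Elts Cfsg.Agent.ChevalleyStructure.NPerm
open Cfsg.Agent.ChevalleyStructure.CoxeterGeom Cfsg.Agent.Tits.Roots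
open Cfsg.Agent.Nodes.Reps Cfsg.Agent.Nodes.BNOf Cfsg.Agent.Nodes.RGDChev Cfsg.Agent.Nodes.Bruhat
open Cfsg.Agent.OddHalf.LongSL Cfsg.Agent.OddHalf.LongSL.Chev

/-- a 4-element `n` inverted by `j ∈ D`, with `n²` inverting an element of odd order of `C(j)` -/
theorem WC.false_of_n {G : Type*} [Group G] {D : Set G} (h : WC D) {j n x : G} (hj : j ∈ D) (h1 : j * n * j⁻¹ = n⁻¹)
    (h2 : n * n * (n * n) = 1) (h3 : x * j = j * x) (h4 : n * n * x * (n * n)⁻¹ = x⁻¹) (hx : x ≠ 1) {k : ℕ}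
    (hk : Odd k) (hxk : x ^ k = 1) : False := by
  have hjj := h.sq hj
  have e1 : n * j * n⁻¹ = n * n * j := by
    have : j * n⁻¹ * j⁻¹ = n := by
      have h5 : j * n⁻¹ * j⁻¹ = (j * n * j⁻¹)⁻¹ := by group
      rw [h5, h1, inv_inv]
    calc n * j * n⁻¹ = n * (j * n⁻¹ * j⁻¹) * j := by group
      _ = n * n * j := by rw [this]
  have e2 : j * (n * n) * j⁻¹ = n * n := by
    have e : j * (n * n) * j⁻¹ = (j * n * j⁻¹) * (j * n * j⁻¹) := by group
    rw [e, h1, ← mul_inv_rev]
    exact inv_eq_of_mul_eq_one_left h2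
  have hi : n * n * j ∈ D := by rw [← e1]; exact h.conj j hj n
  refine h.false_of_inv hj hi ?_ h3 hx hk hxk ?_
  · have e3 : j * (n * n) = n * n * j := by rw [mul_inv_eq_iff_eq_mul] at e2; exact e2
    rw [← mul_assoc j, e3]
  · have e4 : n * n * j * x * (n * n * j)⁻¹ = n * n * (j * x * j⁻¹) * (n * n)⁻¹ := by group
    rw [e4, ← h3, mul_inv_cancel_right, h4]

section Main

variable {D : ChevalleyDatum} {l : ℕ} {M : CoxeterMatrix (Fin l)} (hp : IsType D l M) (K : Type) [Field K]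
variable (i : Fin l)

include hp in
theorem longHom_of_chk [Fintype K] (hK : Odd (Fintype.card K)) (h1 : chk D i = true) (h2 : chkOdd D i = true) :
    LongHom (phi hp K i) := by
  classical
  obtain ⟨p, hpc⟩ := CharP.exists K
  have hpp : p.Prime := (CharP.char_is_prime_or_zero K p).resolve_right (CharP.char_ne_zero_of_finite K p)
  have : Fact p.Prime := ⟨hpp⟩
  have h2K : (2 : K) ≠ 0 := two_ne_of_odd hK
  have hp2 : Odd p := by
    rcases hpp.eq_two_or_odd' with rfl | h
    · exact absurd (by exact_mod_cast CharP.cast_eq_zero K 2) h2K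
    · exact h
  let cs : CoxeterSystem M M.Group := M.toCoxeterSystem
  have hfin : Finite M.Group := finite_W hp cs
  have hr := simple_lt hp.inList (lt_rank hp i)
  have hnr := neg_lt hp.inList hr
  have hinj : Function.Injective (phi hp K i) := by
    rw [injective_iff_map_eq_one]
    intro g hg
    have hg' : SL2Hom.phi (SL2All.good_of_mem D hp.inList (D.simple i) hr) K g = 1 := congrArg Subtype.val hg
    rcases phi_eq_one _ hg' with h | h
    · exact h
    · exfalso
      rw [h] at hg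
      have h3 : hG hp.inList (D.simple i) (-1 : K) = 1 := by rw [← phi_neg_one hp K i, hg]; rfl
      obtain ⟨s, hs, hs'⟩ := List.any_eq_true.1 h2
      rw [List.mem_range] at hs
      have h4 := conj_hG hp K i hs (-1) (neg_ne_zero.2 one_ne_zero) 1
      rw [h3, one_mul, inv_one, mul_one, beq_iff_eq.1 hs', zpow_one, mul_one] at h4
      have h5 := xG_injective hp.inList hs h4
      apply h2K
      linear_combination h5
  have hjT : phi hp K i (-1) ∈ (D.diagonalSubgroup K).subgroupOf (D.group K) := by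
    rw [Subgroup.mem_subgroupOf, phi_neg_one]
    exact hG_mem_diagonal hp.inList hr (neg_ne_zero.2 one_ne_zero)
  have hrange : (phi hp K i).range = JX (fun x => (XV D l K x).subgroupOf (D.group K)) (phi hp K i (-1)) (sr i) := by
    refine range_eq_JX _ rfl ?_ ?_ ?_ ?_
    · intro t
      rw [Subgroup.mem_subgroupOf, phi_up, XV_sr hp i]
      exact xG_mem_rootSubgroup _ _ _
    · intro t
      rw [Subgroup.mem_subgroupOf, phi_lo, XV_neg_sr hp i]
      exact xG_mem_rootSubgroup _ _ _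
    · intro u hu _
      rw [Subgroup.mem_subgroupOf, XV_sr hp i, mem_rootSubgroup_iff hp.inList] at hu
      obtain ⟨t, ht⟩ := hu
      exact ⟨t, Subtype.ext (by rw [phi_up, ht])⟩
    · intro u hu _
      rw [Subgroup.mem_subgroupOf, XV_neg_sr hp i, mem_rootSubgroup_iff hp.inList] at hu
      obtain ⟨t, ht⟩ := hu
      exact ⟨t, Subtype.ext (by rw [phi_lo, ht])⟩
  refine longHom_of_rgd (rgd (K := K) hp cs p) hp2 (KFacts.RgdRigid.GG_eq_top (G1_eq_top hp cs))
    (isRoot_sr cs hp.isCartan i) hK (phi hp K i) hinj rfl hjT hrange ?_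
  intro x hx hx1 hx2
  obtain ⟨s, hs, rfl⟩ := (isRoot_iff hp cs x).1 hx
  have hs1 : s ≠ D.simple i := by
    rintro rfl
    exact hx1 (vec_simple hp i)
  have hs2 : s ≠ D.neg (D.simple i) := by
    rintro rfl
    exact hx2 (by rw [vec_neg hp hr, vec_simple hp i])
  have h3 := List.all_eq_true.1 h1 s (List.mem_range.2 hs)
  simp only [Bool.or_eq_true, beq_iff_eq, Bool.and_eq_true, List.isEmpty_iff, hs1, hs2, false_or] at h3
  have hinv : D.cartan i s = 1 ∨ D.cartan i s = -1 → ∀ u ∈ (XV D l K (vec D l s)).subgroupOf (D.group K),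
      phi hp K i (-1) * u * (phi hp K i (-1))⁻¹ = u⁻¹ := by
    intro h4 u hu
    rw [Subgroup.mem_subgroupOf, XV_vec hp K hs, mem_rootSubgroup_iff hp.inList] at hu
    obtain ⟨t, ht⟩ := hu
    apply Subtype.ext
    rw [Subgroup.coe_mul, Subgroup.coe_mul, Subgroup.coe_inv, Subgroup.coe_inv, phi_neg_one, ht,
      conj_hG hp K i hs (-1) (neg_ne_zero.2 one_ne_zero), xG_inv]
    congr 1
    rcases h4 with h4 | h4
    · rw [h4, zpow_one, neg_one_mul]
    · rw [h4, zpow_neg, zpow_one, inv_neg, inv_one, neg_one_mul]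
  rcases h3 with (h3 | h3) | ⟨h3, h4⟩
  · left; exact hinv (Or.inl h3)
  · left; exact hinv (Or.inr h3)
  · right
    intro u hu
    rw [Subgroup.mem_subgroupOf, XV_vec hp K hs, mem_rootSubgroup_iff hp.inList] at hu
    obtain ⟨t, ht⟩ := hu
    refine commute_range _ ?_ ?_
    · intro c
      apply Subtype.ext
      rw [Subgroup.coe_mul, Subgroup.coe_mul, phi_up, ht]
      exact commute_xG hp K hr hs hs1 hs2 h3 c t
    · intro c
      apply Subtype.ext
      rw [Subgroup.coe_mul, Subgroup.coe_mul, phi_lo, ht]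
      exact commute_xG hp K hnr hs hs2 (by rw [RootVec.neg_neg hp.checked hr]; exact hs1) h4 c t

/-- both Cartan integers are odd -/
def chkC (D : ChevalleyDatum) (i k : ℕ) : Bool :=
  decide (D.cartan i (D.simple k) % 2 = 1 ∧ D.cartan i (D.neg (D.simple k)) % 2 = 1 ∧
    D.cartan k (D.simple i) % 2 = 1)

theorem zpow_odd {F : Type*} [Field F] {m : ℤ} (hm : m % 2 = 1) : (-1 : F) ^ m = -1 :=
  Odd.neg_one_zpow (Int.odd_iff.2 hm)

include hp in
theorem chev_false [Fintype K] (hK : Fintype.card K = 3) {i k : Fin l} (h1 : chk D i = true)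
    (h2 : chkOdd D i = true) (h3 : chkC D i k = true) {Dd : Set ↥(D.group K)} (F : Full Dd) : False := by
  have hfin : Finite ↥(D.group K) := by
    have : Finite (GL D.Idx K) := inferInstance
    infer_instance
  have ho : Odd (Fintype.card K) := by rw [hK]; decide
  have hL := longHom_of_chk hp K i ho h1 h2
  have hj := F.mem_of_longHom hK hL
  have h3' : D.cartan i (D.simple k) % 2 = 1 ∧ D.cartan i (D.neg (D.simple k)) % 2 = 1 ∧
    D.cartan k (D.simple i) % 2 = 1 := of_decide_eq_true h3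
  obtain ⟨c1, c2, c3⟩ := h3'
  have hri := simple_lt hp.inList (lt_rank hp i)
  have hrk := simple_lt hp.inList (lt_rank hp k)
  have hnrk := neg_lt hp.inList hrk
  have hm1 : (-1 : K) ≠ 0 := neg_ne_zero.2 one_ne_zero
  have h3K : (3 : K) = 0 := by
    have := Nat.cast_card_eq_zero K
    rw [hK] at this
    exact_mod_cast this
  have hu : ∀ t, phi hp K i (-1) * phi hp K k (SL2Hom.up t) * (phi hp K i (-1))⁻¹ = phi hp K k (SL2Hom.up (-t)) := by
    intro t
    apply Subtype.ext
    rw [Subgroup.coe_mul, Subgroup.coe_mul, Subgroup.coe_inv, phi_neg_one, phi_up, phi_up, conj_hG hp K i hrk (-1) hm1,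
      zpow_odd c1, neg_one_mul]
  have hl : ∀ t, phi hp K i (-1) * phi hp K k (SL2Hom.lo t) * (phi hp K i (-1))⁻¹ = phi hp K k (SL2Hom.lo (-t)) := by
    intro t
    apply Subtype.ext
    rw [Subgroup.coe_mul, Subgroup.coe_mul, Subgroup.coe_inv, phi_neg_one, phi_lo, phi_lo, conj_hG hp K i hnrk (-1) hm1,
      zpow_odd c2, neg_one_mul]
  have hw : phi hp K k (wm K) * phi hp K k (wm K) = phi hp K k (-1) := by rw [← map_mul, wm_sq]
  refine F.toWC.false_of_n (j := phi hp K i (-1)) (n := phi hp K k (wm K)) (x := phi hp K i (SL2Hom.up 1)) hj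
    (conj_wm0 hu hl) ?_ ?_ ?_ ?_ (k := 3) (by decide) ?_
  · rw [hw, ← map_mul, neg_one_mul, neg_neg, map_one]
  · rw [← map_mul, ← map_mul]
    congr 1
    rw [mul_neg_one, neg_one_mul]
  · rw [hw]
    apply Subtype.ext
    rw [Subgroup.coe_mul, Subgroup.coe_mul, Subgroup.coe_inv, Subgroup.coe_inv, phi_neg_one, phi_up,
      conj_hG hp K k hri (-1) hm1, zpow_odd c3, neg_one_mul, xG_inv]
  · intro h
    exact up_ne_one one_ne_zero (hL.1 (h.trans (map_one _).symm))
  · rw [← map_pow, up_three h3K, map_one]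

end Main

theorem chk_G2' : (chk chevG2 1 && chkOdd chevG2 1 && chkC chevG2 1 0) = true := by decide +kernel
theorem chk_F4' : (chk chevF4 3 && chkOdd chevF4 3 && chkC chevF4 3 2) = true := by decide +kernel
theorem chk_E6' : (chk chevE6 0 && chkOdd chevE6 0 && chkC chevE6 0 2) = true := by decide +kernel
theorem chk_E7' : (chk chevE7 0 && chkOdd chevE7 0 && chkC chevE7 0 2) = true := by decide +kernel
theorem chk_E8' : (chk chevE8 0 && chkOdd chevE8 0 && chkC chevE8 0 2) = true := by decide +kernel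

/-- `G₂(3)`, `F₄(3)`, `E₆(3)`, `E₇(3)`, `E₈(3)` -/
theorem Full.not_chev {X : Type*} [Group X] {D : Set X} (F : Full D)
    (h : OddHalf.LieOddFam.FG2 X 3 ∨ OddHalf.LieOddFam.FF4 X 3 ∨ OddHalf.LieOddFam.FE6 X 3 ∨
      OddHalf.LieOddFam.FE7 X 3 ∨ OddHalf.LieOddFam.FE8 X 3) : False := by
  rcases h with ⟨K, i1, i2, hK, ⟨e⟩⟩ | ⟨K, i1, i2, hK, ⟨e⟩⟩ | ⟨K, i1, i2, hK, ⟨e⟩⟩ | ⟨K, i1, i2, hK, ⟨e⟩⟩ |
    ⟨K, i1, i2, hK, ⟨e⟩⟩
  · have h := chk_G2'
    rw [Bool.and_eq_true, Bool.and_eq_true] at h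
    exact chev_false (l := 2) (M := CoxeterMatrix.G₂) (by simp [IsType, typeList]) K hK (i := 1) (k := 0) h.1.1 h.1.2 h.2
      (F.map_equiv e)
  · have h := chk_F4'
    rw [Bool.and_eq_true, Bool.and_eq_true] at h
    exact chev_false (l := 4) (M := CoxeterMatrix.F₄) (by simp [IsType, typeList]) K hK (i := 3) (k := 2) h.1.1 h.1.2 h.2
      (F.map_equiv e)
  · have h := chk_E6'
    rw [Bool.and_eq_true, Bool.and_eq_true] at h
    exact chev_false (l := 6) (M := CoxeterMatrix.E₆) (by simp [IsType, typeList]) K hK (i := 0) (k := 2) h.1.1 h.1.2 h.2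
      (F.map_equiv e)
  · have h := chk_E7'
    rw [Bool.and_eq_true, Bool.and_eq_true] at h
    exact chev_false (l := 7) (M := CoxeterMatrix.E₇) (by simp [IsType, typeList]) K hK (i := 0) (k := 2) h.1.1 h.1.2 h.2
      (F.map_equiv e)
  · have h := chk_E8'
    rw [Bool.and_eq_true, Bool.and_eq_true] at h
    exact chev_false (l := 8) (M := CoxeterMatrix.E₈) (by simp [IsType, typeList]) K hK (i := 0) (k := 2) h.1.1 h.1.2 h.2
      (F.map_equiv e)

end Cfsg.Agent.H204.RI
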