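import Cfsg.Agent.H204.RI.LongChev
import Cfsg.Agent.OddHalf.LongSL.Tw

/-!
# `³D₄(3)`, `²E₆(3)` (helper204, for S3126)
-/

set_option autoImplicit false
set_option linter.unusedSectionVars false

namespace Cfsg.Agent.H204.RI

open CoxeterSystem Cfsg.Agent.ChevalleyStructure.CoxeterGeom Cfsg.Agent.Tits.Roots Cfsg.Agent.Tits.Core
  Cfsg.Agent.Tits.RootComb Cfsg.Agent.Nodes.Comb Cfsg.Agent.Nodes.Reps Cfsg.Agent.Nodes.BNOf
  Cfsg.Agent.Nodes.RGDTwGen Cfsg.Agent.Nodes.RGDChev Cfsg.Agent.Nodes.RGDFold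
open Cfsg.Lie Cfsg.Agent.ChevalleyStructure Cfsg.Agent.ChevalleyStructure.Elts
  Cfsg.Agent.ChevalleyStructure.RootVec Cfsg.Agent.ChevalleyStructure.RootVecTab
  Cfsg.Agent.ChevalleyStructure.NPerm Cfsg.Agent.ChevalleyStructure.CoxeterGeomTypes
  Cfsg.Agent.ChevalleyStructure.TwistedU Cfsg.Agent.ChevalleyStructure.TwistedFix
open Cfsg.Agent.OddHalf.LongSL Cfsg.Agent.OddHalf.LongSL.Chev Cfsg.Agent.OddHalf.LongSL.Fold

section Group

variable {D : ChevalleyDatum} {l : ℕ} {M' : CoxeterMatrix (Fin l)} {hp : IsType D l M'} {K : Type} [Field K]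
variable {m : ℕ} {M : CoxeterMatrix (Fin m)} {W : Type*} [Group W] (cs : CoxeterSystem M W)
  {A : Fin m → Fin m → ℤ} (h : IsCartan M A)
variable {J : Fin m → List (Fin l)} {L : List (List ℕ)} {σ : GL D.Idx K →* GL D.Idx K} {ρ ρ' : ℕ → ℕ}
    {f : ℕ → K → K} {G : Subgroup (GL D.Idx K)} (FD : FoldData D M A J L)
    (FG : FoldGrp hp K J L σ ρ ρ' f G) (i₀ : Fin m) (j₀ : Fin l)
    (hA : ∀ k < D.nroots, (V D J k = sr i₀ ↔ k ∈ [D.simple j₀]))
    (hA' : ∀ k < D.nroots, (V D J k = -sr i₀ ↔ k ∈ [D.neg (D.simple j₀)])) (φ : K →+* K)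
    (hsp : ∀ t, σ (xG hp.inList (D.simple j₀) t) = xG hp.inList (D.simple j₀) (φ t))
    (hsn : ∀ t, σ (xG hp.inList (D.neg (D.simple j₀)) t) = xG hp.inList (D.neg (D.simple j₀)) (φ t))

include h FD FG hA hA' hsp hsn in
/-- the long `SL₂` of the folded groups -/
theorem longHom_fold [Fintype K] [Fintype (FF φ)] (hF : Odd (Fintype.card (FF φ))) (hodd : chkOdd D j₀ = true)
    (h1 : chk D j₀ = true) (h2 : chkF D J j₀ = true) :
    ∃ ψ : Matrix.SpecialLinearGroup (Fin 2) (FF φ) →* ↥G, LongHom ψ ∧ ∀ g, (ψ g : GL D.Idx K) = psi0 (hp := hp) j₀ φ g := by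
  classical
  obtain ⟨p, hpc⟩ := CharP.exists K
  have hpp : p.Prime := (CharP.char_is_prime_or_zero K p).resolve_right (CharP.char_ne_zero_of_finite K p)
  have : Fact p.Prime := ⟨hpp⟩
  have h2K : (2 : K) ≠ 0 := by
    intro h0
    exact two_ne_of_odd hF (Subtype.ext (by push_cast; exact h0))
  have hp2 : Odd p := by
    rcases hpp.eq_two_or_odd' with rfl | h
    · exact absurd (by exact_mod_cast CharP.cast_eq_zero K 2) h2K
    · exact h
  let cs : CoxeterSystem M M.Group := M.toCoxeterSystem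
  have hfin : Finite M.Group := Cfsg.Agent.Nodes.RGDFold.finite_W (hp := hp) cs h FD
  have hr := simple_lt hp.inList (lt_rank hp j₀)
  have hnr := neg_lt hp.inList hr
  let ψ : Matrix.SpecialLinearGroup (Fin 2) (FF φ) →* ↥G :=
    (psi0 (hp := hp) j₀ φ).codRestrict G (psi0_mem cs h FD FG i₀ j₀ hA hA' φ hsp hsn p)
  have hψ : ∀ g, (ψ g : GL D.Idx K) = psi0 (hp := hp) j₀ φ g := fun g => rfl
  have hinj : Function.Injective ψ := fun a b hab =>
    psi0_injective (hp := hp) j₀ φ h2K hodd (congrArg Subtype.val hab)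
  have hjT : ψ (-1) ∈ (D.diagonalSubgroup K ⊓ G).subgroupOf G := by
    rw [Subgroup.mem_subgroupOf]
    refine ⟨?_, (ψ (-1)).2⟩
    rw [hψ, psi0_neg_one]
    exact hG_mem_diagonal hp.inList hr (neg_ne_zero.2 one_ne_zero)
  have hrange : ψ.range = JX (fun z => (R D hp K J σ z).subgroupOf G) (ψ (-1)) (sr i₀) := by
    refine range_eq_JX _ rfl ?_ ?_ ?_ ?_
    · intro t
      rw [Subgroup.mem_subgroupOf, hψ, psi0_up]
      exact (mem_R_pos i₀ j₀ hA φ hsp _).2 ⟨t, t.2, rfl⟩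
    · intro t
      rw [Subgroup.mem_subgroupOf, hψ, psi0_lo]
      exact (mem_R_neg i₀ j₀ hA' φ hsn _).2 ⟨t, t.2, rfl⟩
    · intro u hu _
      obtain ⟨t, ht, e⟩ := (mem_R_pos i₀ j₀ hA φ hsp _).1 (Subgroup.mem_subgroupOf.1 hu)
      exact ⟨⟨t, ht⟩, Subtype.ext (by rw [hψ, psi0_up]; exact e.symm)⟩
    · intro u hu _
      obtain ⟨t, ht, e⟩ := (mem_R_neg i₀ j₀ hA' φ hsn _).1 (Subgroup.mem_subgroupOf.1 hu)
      exact ⟨⟨t, ht⟩, Subtype.ext (by rw [hψ, psi0_lo]; exact e.symm)⟩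
  refine ⟨ψ, ?_, hψ⟩
  refine longHom_of_rgd (rgd cs h FD FG p) hp2 (KFacts.RgdRigid.GG_eq_top (G1_eq_top cs h FD FG p))
    (isRoot_sr cs h i₀) hF ψ hinj rfl hjT hrange ?_
  intro z hz hz1 hz2
  obtain ⟨s₀, hs₀, rfl⟩ := (FD.isRoot_iff (cs := cs) (h := h) hp.checked (fun i r hr => wp_lt hp (J i) hr) z).1 hz
  have hne : ∀ k < D.nroots, V D J k = V D J s₀ → k ≠ D.simple j₀ ∧ k ≠ D.neg (D.simple j₀) := by
    intro k hk hV
    constructor
    · rintro rfl
      exact hz1 (hV ▸ (hA _ hr).2 (by simp))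
    · rintro rfl
      exact hz2 (hV ▸ (hA' _ hnr).2 (by simp))
  have hfib : ∀ k < D.nroots, ∀ k' < D.nroots, V D J k = V D J k' → k ≠ k' →
      D.cartan j₀ k = D.cartan j₀ k' ∧ k' ≠ D.neg k ∧ D.commTerms k k' = [] := by
    intro k hk k' hk' hV hkk
    have h3 := List.all_eq_true.1 (List.all_eq_true.1 h2 k (List.mem_range.2 hk)) k' (List.mem_range.2 hk')
    simp only [Bool.or_eq_true, beq_iff_eq, Bool.and_eq_true, List.isEmpty_iff, hkk, false_or, hV, decide_true,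
      Bool.not_true, Bool.false_eq_true, bne_iff_ne] at h3
    exact ⟨h3.1.1, h3.1.2, h3.2⟩
  have hcases : ∀ k < D.nroots, V D J k = V D J s₀ → (D.cartan j₀ k = 1 ∨ D.cartan j₀ k = -1) ∨
      (D.commTerms (D.simple j₀) k = [] ∧ D.commTerms (D.neg (D.simple j₀)) k = []) := by
    intro k hk hV
    have h3 := List.all_eq_true.1 h1 k (List.mem_range.2 hk)
    obtain ⟨hk1, hk2⟩ := hne k hk hV
    simp only [Bool.or_eq_true, beq_iff_eq, Bool.and_eq_true, List.isEmpty_iff, hk1, hk2, false_or] at h3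
    exact h3
  by_cases hc : D.cartan j₀ s₀ = 1 ∨ D.cartan j₀ s₀ = -1
  · left
    intro u hu
    have hu' := (Subgroup.mem_subgroupOf.1 hu).1
    apply Subtype.ext
    have h3 : ∀ k < D.nroots, V D J k = V D J s₀ → D.cartan j₀ k = 1 ∨ D.cartan j₀ k = -1 := by
      intro k hk hV
      by_cases hkk : k = s₀
      · rw [hkk]; exact hc
      · rw [(hfib k hk s₀ hs₀ hV hkk).1]; exact hc
    refine inverts_closure (S := {g | ∃ r ∈ {k | k < D.nroots ∧ V D J k = V D J s₀}, ∃ t, g = xG hp.inList r t})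
      ?_ ?_ _ hu'
    · rintro _ ⟨k, ⟨hk, hV⟩, t, rfl⟩
      show ((ψ (-1) : ↥G) : GL D.Idx K) * _ * ((ψ (-1) : ↥G) : GL D.Idx K)⁻¹ = _
      rw [hψ, psi0_neg_one, conj_hG hp K j₀ hk (-1) (neg_ne_zero.2 one_ne_zero), xG_inv]
      congr 1
      rcases h3 k hk hV with h4 | h4
      · rw [h4, zpow_one, neg_one_mul]
      · rw [h4, zpow_neg, zpow_one, inv_neg, inv_one, neg_one_mul]
    · rintro _ ⟨k, ⟨hk, hV⟩, t, rfl⟩ _ ⟨k', ⟨hk', hV'⟩, t', rfl⟩
      by_cases hkk : k = k'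
      · subst hkk
        rw [xG_add, xG_add, add_comm]
      · obtain ⟨-, h4, h5⟩ := hfib k hk k' hk' (hV.trans hV'.symm) hkk
        exact (commute_xG hp K hk hk' (Ne.symm hkk) h4 h5 t t').symm
  · right
    intro u hu
    have hu' := (Subgroup.mem_subgroupOf.1 hu).1
    have h3 : ∀ k < D.nroots, V D J k = V D J s₀ →
        D.commTerms (D.simple j₀) k = [] ∧ D.commTerms (D.neg (D.simple j₀)) k = [] := by
      intro k hk hV
      rcases hcases k hk hV with h4 | h4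
      · exfalso
        by_cases hkk : k = s₀
        · rw [hkk] at h4; exact hc h4
        · rw [(hfib k hk s₀ hs₀ hV hkk).1] at h4; exact hc h4
      · exact h4
    have hcent : ∀ (r : ℕ), r < D.nroots → (∀ k < D.nroots, V D J k = V D J s₀ →
        k ≠ r ∧ k ≠ D.neg r ∧ D.commTerms r k = []) → ∀ c : K,
        (u : GL D.Idx K) * xG hp.inList r c = xG hp.inList r c * (u : GL D.Idx K) := by
      intro r hr' hk c
      have h5 : rspan (xG (F := K) hp.inList) {k | k < D.nroots ∧ V D J k = V D J s₀} ≤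
          Subgroup.centralizer {xG hp.inList r c} := by
        refine rspan_le _ ?_
        rintro k ⟨hk1, hk2⟩ t
        obtain ⟨h6, h7, h8⟩ := hk k hk1 hk2
        rw [Subgroup.mem_centralizer_iff]
        rintro _ rfl
        exact (commute_xG hp K hr' hk1 h6 h7 h8 c t).symm
      exact (Subgroup.mem_centralizer_iff.1 (h5 hu') _ rfl).symm
    refine commute_range _ ?_ ?_
    · intro c
      apply Subtype.ext
      rw [Subgroup.coe_mul, Subgroup.coe_mul, hψ, psi0_up]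
      refine hcent _ hr (fun k hk hV => ⟨(hne k hk hV).1, (hne k hk hV).2, (h3 k hk hV).1⟩) _
    · intro c
      apply Subtype.ext
      rw [Subgroup.coe_mul, Subgroup.coe_mul, hψ, psi0_lo]
      refine hcent _ hnr (fun k hk hV => ⟨(hne k hk hV).2, ?_, (h3 k hk hV).2⟩) _
      rw [RootVec.neg_neg hp.checked hr]
      exact (hne k hk hV).1

/-! ### the elements `n_k` -/

/-- `n_k = φ_k(w)⁻¹` -/
theorem nn_eq (k : Fin l) : nn hp K k = ((phi hp K k (wm K))⁻¹ : ↥(D.group K)) := by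
  unfold wm
  rw [← map_inv, mul_inv_rev, mul_inv_rev, ← up_neg, ← lo_neg, _root_.neg_neg, map_mul, map_mul, Subgroup.coe_mul,
    Subgroup.coe_mul, phi_up, phi_lo]
  show nG hp.inList (D.simple k) 1 = _
  rw [nG_def, inv_one]

theorem nn_sq (k : Fin l) : nn hp K k * nn hp K k = hG hp.inList (D.simple k) (-1) := by
  rw [nn_eq, ← phi_neg_one hp K k, ← Subgroup.coe_mul, ← mul_inv_rev, ← map_mul, wm_sq, ← map_inv]
  have : (-1 : Matrix.SpecialLinearGroup (Fin 2) K)⁻¹ = -1 := by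
    rw [inv_eq_iff_mul_eq_one, neg_one_mul, _root_.neg_neg]
  rw [this]

theorem hG_sq (k : Fin l) : hG hp.inList (D.simple k) (-1 : K) * hG hp.inList (D.simple k) (-1) = 1 := by
  rw [← phi_neg_one hp K k, ← Subgroup.coe_mul, ← map_mul, neg_one_mul, _root_.neg_neg, map_one, Subgroup.coe_one]

/-- `h_i(-1)` inverts `n_k` -/
theorem conj_nn {i k : Fin l} (c1 : D.cartan i (D.simple k) % 2 = 1) (c2 : D.cartan i (D.neg (D.simple k)) % 2 = 1) :
    hG hp.inList (D.simple i) (-1 : K) * nn hp K k * (hG hp.inList (D.simple i) (-1))⁻¹ = (nn hp K k)⁻¹ := by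
  have hrk := simple_lt hp.inList (lt_rank hp k)
  have hnrk := neg_lt hp.inList hrk
  have hm1 : (-1 : K) ≠ 0 := neg_ne_zero.2 one_ne_zero
  have hu : ∀ t, phi hp K i (-1) * phi hp K k (SL2Hom.up t) * (phi hp K i (-1))⁻¹ = phi hp K k (SL2Hom.up (-t)) := by
    intro t
    apply Subtype.ext
    rw [Subgroup.coe_mul, Subgroup.coe_mul, Subgroup.coe_inv, phi_neg_one, phi_up, phi_up, conj_hG hp K i hrk (-1) hm1,
      zpow_odd c1, neg_one_mul]
  have hl : ∀ t, phi hp K i (-1) * phi hp K k (SL2Hom.lo t) * (phi hp K i (-1))⁻¹ = phi hp K k (SL2Hom.lo (-t)) := by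
    intro t
    apply Subtype.ext
    rw [Subgroup.coe_mul, Subgroup.coe_mul, Subgroup.coe_inv, phi_neg_one, phi_lo, phi_lo, conj_hG hp K i hnrk (-1) hm1,
      zpow_odd c2, neg_one_mul]
  have h1 := conj_wm0 hu hl
  have h2 : phi hp K i (-1) * (phi hp K k (wm K))⁻¹ * (phi hp K i (-1))⁻¹ = phi hp K k (wm K) := by
    have e : phi hp K i (-1) * (phi hp K k (wm K))⁻¹ * (phi hp K i (-1))⁻¹ =
        (phi hp K i (-1) * phi hp K k (wm K) * (phi hp K i (-1))⁻¹)⁻¹ := by group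
    rw [e, h1, inv_inv]
  have h3 := congrArg Subtype.val h2
  rw [nn_eq, ← phi_neg_one hp K i]
  simpa only [Subgroup.coe_mul, Subgroup.coe_inv, inv_inv] using h3

/-- `n_k`, `n_k'` commute for orthogonal simple roots -/
theorem comm_nn {k k' : Fin l} (hkk : D.simple k' ≠ D.simple k) (hkn : D.simple k' ≠ D.neg (D.simple k))
    (hkn' : D.neg (D.simple k') ≠ D.neg (D.simple k)) (hkn'' : D.neg (D.simple k') ≠ D.simple k)
    (h1 : D.commTerms (D.simple k) (D.simple k') = []) (h2 : D.commTerms (D.neg (D.simple k)) (D.simple k') = [])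
    (h3 : D.commTerms (D.simple k) (D.neg (D.simple k')) = [])
    (h4 : D.commTerms (D.neg (D.simple k)) (D.neg (D.simple k')) = []) :
    nn hp K k * nn hp K k' = nn hp K k' * nn hp K k := by
  have hrk := simple_lt hp.inList (lt_rank hp k)
  have hnrk := neg_lt hp.inList hrk
  have hrk' := simple_lt hp.inList (lt_rank hp k')
  have hnrk' := neg_lt hp.inList hrk'
  have key : ∀ g : Matrix.SpecialLinearGroup (Fin 2) K, ∀ v ∈ (phi hp K k).range, phi hp K k' g * v = v * phi hp K k' g := by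
    intro g
    have h5 : g ∈ (Subgroup.centralizer ((phi hp K k).range : Set ↥(D.group K))).comap (phi hp K k') := by
      refine (Subgroup.closure_le _).2 ?_ (SL2Hom.mem_closure_SL2 g)
      rintro x (⟨t, rfl⟩ | ⟨t, rfl⟩)
      · show phi hp K k' _ ∈ Subgroup.centralizer _
        rw [Subgroup.mem_centralizer_iff]
        intro v hv
        refine (commute_range (phi hp K k) (u := phi hp K k' (SL2Hom.up t)) ?_ ?_ v hv).symm
        · intro c
          apply Subtype.ext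
          rw [Subgroup.coe_mul, Subgroup.coe_mul, phi_up, phi_up]
          exact commute_xG hp K hrk hrk' hkk hkn h1 c t
        · intro c
          apply Subtype.ext
          rw [Subgroup.coe_mul, Subgroup.coe_mul, phi_up, phi_lo]
          exact commute_xG hp K hnrk hrk' hkn (by rw [RootVec.neg_neg hp.checked hrk]; exact hkk) h2 c t
      · show phi hp K k' _ ∈ Subgroup.centralizer _
        rw [Subgroup.mem_centralizer_iff]
        intro v hv
        refine (commute_range (phi hp K k) (u := phi hp K k' (SL2Hom.lo t)) ?_ ?_ v hv).symm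
        · intro c
          apply Subtype.ext
          rw [Subgroup.coe_mul, Subgroup.coe_mul, phi_up, phi_lo]
          exact commute_xG hp K hrk hnrk' hkn'' hkn' h3 c t
        · intro c
          apply Subtype.ext
          rw [Subgroup.coe_mul, Subgroup.coe_mul, phi_lo, phi_lo]
          exact commute_xG hp K hnrk hnrk' hkn' (by rw [RootVec.neg_neg hp.checked hrk]; exact hkn'') h4 c t
    intro v hv
    exact (Subgroup.mem_centralizer_iff.1 h5 v hv).symm
  have h6 := key (wm K) _ ⟨wm K, rfl⟩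
  rw [nn_eq, nn_eq, ← Subgroup.coe_mul, ← Subgroup.coe_mul, ← mul_inv_rev, ← mul_inv_rev, h6]

/-- the final step for the folded groups -/
theorem fold_false [Finite K] [Fintype (FF φ)] (hc : Fintype.card (FF φ) = 3)
    {ψ : Matrix.SpecialLinearGroup (Fin 2) (FF φ) →* ↥G} (hL : LongHom ψ)
    (hψ : ∀ g, (ψ g : GL D.Idx K) = psi0 (hp := hp) j₀ φ g) {n : GL D.Idx K} (hn : n ∈ G)
    (h1 : hG hp.inList (D.simple j₀) (-1 : K) * n * (hG hp.inList (D.simple j₀) (-1))⁻¹ = n⁻¹)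
    (h2 : n * n * (n * n) = 1) (h3 : ∀ t : K, n * n * xG hp.inList (D.simple j₀) t * (n * n)⁻¹ =
      xG hp.inList (D.simple j₀) (-t)) {Dd : Set ↥G} (F : Full Dd) : False := by
  have hfin : Finite ↥G := by
    have : Finite (GL D.Idx K) := inferInstance
    infer_instance
  have hj := F.mem_of_longHom hc hL
  have h3K : (3 : FF φ) = 0 := by
    have := Nat.cast_card_eq_zero (FF φ)
    rw [hc] at this
    exact_mod_cast this
  refine F.toWC.false_of_n (j := ψ (-1)) (n := ⟨n, hn⟩) (x := ψ (SL2Hom.up 1)) hj ?_ (Subtype.ext h2) ?_ ?_ ?_ (k := 3)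
    (by decide) ?_
  · apply Subtype.ext
    show ((ψ (-1) : ↥G) : GL D.Idx K) * n * ((ψ (-1) : ↥G) : GL D.Idx K)⁻¹ = n⁻¹
    rw [hψ, psi0_neg_one]; exact h1
  · rw [← map_mul, ← map_mul]
    congr 1
    rw [mul_neg_one, neg_one_mul]
  · apply Subtype.ext
    show n * n * ((ψ (SL2Hom.up 1) : ↥G) : GL D.Idx K) * (n * n)⁻¹ = ((ψ (SL2Hom.up 1) : ↥G) : GL D.Idx K)⁻¹
    rw [hψ, psi0_up, h3, xG_inv]
  · intro h
    exact up_ne_one one_ne_zero (hL.1 (h.trans (map_one _).symm))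
  · rw [← map_pow, up_three h3K, map_one]

end Group

theorem chkC_E6 : chkC chevE6 1 3 = true := by decide +kernel

theorem chkC_D4 : (chkC chevD4 1 0 && chkC chevD4 1 2 && chkC chevD4 1 3) = true := by decide +kernel

/-- orthogonal simple roots -/
def chkO (D : ChevalleyDatum) (k k' : ℕ) : Bool :=
  decide (D.simple k' ≠ D.simple k ∧ D.simple k' ≠ D.neg (D.simple k) ∧ D.neg (D.simple k') ≠ D.neg (D.simple k) ∧
    D.neg (D.simple k') ≠ D.simple k) && (D.commTerms (D.simple k) (D.simple k')).isEmpty &&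
    (D.commTerms (D.neg (D.simple k)) (D.simple k')).isEmpty && (D.commTerms (D.simple k) (D.neg (D.simple k'))).isEmpty &&
    (D.commTerms (D.neg (D.simple k)) (D.neg (D.simple k'))).isEmpty

theorem comm_nn' {D : ChevalleyDatum} {l : ℕ} {M' : CoxeterMatrix (Fin l)} {hp : IsType D l M'} {K : Type} [Field K]
    {k k' : Fin l} (h : chkO D k k' = true) : nn hp K k * nn hp K k' = nn hp K k' * nn hp K k := by
  unfold chkO at h
  simp only [Bool.and_eq_true, decide_eq_true_eq, List.isEmpty_iff] at h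
  obtain ⟨⟨⟨⟨⟨a1, a2, a3, a4⟩, b1⟩, b2⟩, b3⟩, b4⟩ := h
  exact comm_nn a1 a2 a3 a4 b1 b2 b3 b4

theorem chkO_D4 : (chkO chevD4 0 2 && chkO chevD4 0 3 && chkO chevD4 2 3) = true := by decide +kernel

open Cfsg.Agent.OddHalf.LongSL.Tw Cfsg.Agent.ChevalleyStructure.GraphSymm

/-- `²E₆(3)` -/
theorem twE6_false {K : Type} [Field K] [Fintype K] (hK : Fintype.card K = 3 ^ 2) {Dd : Set ↥(twistedE6 K 3)}
    (F : Full Dd) : False := by
  classical
  have hq : IsPrimePow 3 := Nat.prime_three.isPrimePow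
  obtain ⟨φ, hφ, hqq⟩ := TwE6Basic.exists_frob hq hK
  have hfin : Fintype (FF φ) := Fintype.ofFinite _
  have hc : Fintype.card (FF φ) = 3 := card_FF hq.two_le hK hφ
  have hchk := Tw.chk_E6
  rw [Bool.and_eq_true, Bool.and_eq_true] at hchk
  have hs : ∀ (r : ℕ) (_ : r < 72), TwistedE6Sigma.rho r = r → ∀ t : K,
      TwE6Basic.sg φ (Elts.xG Cfsg.Agent.Nodes.RGDTwE6.hp.inList r t) =
        Elts.xG Cfsg.Agent.Nodes.RGDTwE6.hp.inList r (φ t) := by
    intro r hr h1 t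
    apply Units.ext
    have h3 := TwistedE6Sigma.sig_xE6 φ (g := Elts.xG Cfsg.Agent.Nodes.RGDTwE6.hp.inList r t) hr (Elts.coe_xG _ _ _)
    rw [h1, TwistedE6Sigma.eps_of_rho_eq r hr h1, Int.cast_one, one_mul] at h3
    exact h3
  obtain ⟨ψ, hL, hψ⟩ := longHom_fold Cfsg.Agent.Nodes.RGDTwE6.isCartan Cfsg.Agent.Nodes.RGDTwE6.foldData
    (Cfsg.Agent.Nodes.RGDTwE6.foldGrp hφ hqq) 0 1
    (by
      intro k hk
      rw [Cfsg.Agent.Nodes.RGDTwE6.cls 0 k hk]
      show k ∈ [46] ↔ k ∈ [chevE6.simple 1]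
      rw [simple_E6.1])
    (by
      intro k hk
      rw [Cfsg.Agent.Nodes.RGDTwE6.cls' 0 k hk]
      show k ∈ [25] ↔ k ∈ [chevE6.neg (chevE6.simple 1)]
      rw [simple_E6.1, simple_E6.2])
    φ
    (by
      show ∀ t : K, TwE6Basic.sg φ (Elts.xG _ (chevE6.simple 1) t) = Elts.xG _ (chevE6.simple 1) (φ t)
      rw [simple_E6.1]
      exact hs 46 (by norm_num) (by decide +kernel))
    (by
      show ∀ t : K, TwE6Basic.sg φ (Elts.xG _ (chevE6.neg (chevE6.simple 1)) t) = Elts.xG _ (chevE6.neg (chevE6.simple 1)) (φ t)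
      rw [simple_E6.1, simple_E6.2]
      exact hs 25 (by norm_num) (by decide +kernel))
    (by rw [hc]; decide) hchk.1.2 hchk.1.1 hchk.2
  have hC : chevE6.cartan 1 (chevE6.simple 3) % 2 = 1 ∧ chevE6.cartan 1 (chevE6.neg (chevE6.simple 3)) % 2 = 1 ∧
    chevE6.cartan 3 (chevE6.simple 1) % 2 = 1 := of_decide_eq_true chkC_E6
  have hn := (Cfsg.Agent.Nodes.RGDTwE6.foldGrp hφ hqq).nG 1
  have hn' : nI Cfsg.Agent.Nodes.RGDTwE6.hp K (Cfsg.Agent.Nodes.RGDTwE6.J 1) = nn Cfsg.Agent.Nodes.RGDTwE6.hp K 3 := by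
    show nI _ K [3] = _
    rw [nI_cons]
    show _ * (([] : List _).map _).prod = _
    rw [List.map_nil, List.prod_nil, mul_one]
  rw [hn'] at hn
  refine fold_false (hp := Cfsg.Agent.Nodes.RGDTwE6.hp) 1 φ hc hL hψ hn (conj_nn (i := 1) (k := 3) hC.1 hC.2.1) ?_ ?_ F
  · rw [nn_sq (hp := Cfsg.Agent.Nodes.RGDTwE6.hp), hG_sq (hp := Cfsg.Agent.Nodes.RGDTwE6.hp)]
  · intro t
    rw [nn_sq, conj_hG Cfsg.Agent.Nodes.RGDTwE6.hp K 3
      (simple_lt Cfsg.Agent.Nodes.RGDTwE6.hp.inList (lt_rank Cfsg.Agent.Nodes.RGDTwE6.hp (1 : Fin 6))) (-1)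
      (neg_ne_zero.2 one_ne_zero)]
    congr 1
    have h4 : chevE6.cartan ((3 : Fin 6) : ℕ) (chevE6.simple ((1 : Fin 6) : ℕ)) % 2 = 1 := hC.2.2
    rw [zpow_odd h4, neg_one_mul]

/-- `³D₄(3)` -/
theorem twD4_false {K : Type} [Field K] [Fintype K] (hK : Fintype.card K = 3 ^ 3) {Dd : Set ↥(twistedD4 K 3)}
    (F : Full Dd) : False := by
  classical
  have hq : IsPrimePow 3 := Nat.prime_three.isPrimePow
  obtain ⟨φ, hφ⟩ := D4Fixed.exists_frob hq hK
  have hfin : Fintype (FF φ) := Fintype.ofFinite _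
  have hc : Fintype.card (FF φ) = 3 := card_FF hq.two_le hK hφ
  have hchk := Tw.chk_D4
  rw [Bool.and_eq_true, Bool.and_eq_true] at hchk
  have hs : ∀ (r : ℕ) (hr : r < 24), (symmD4a.σ ⟨r, hr⟩).val = r → symmD4a.ε ⟨r, hr⟩ = 1 → ∀ t : K,
      D4Fixed.sig φ (Elts.xG Cfsg.Agent.Nodes.RGDTwD4.hp.inList r t) =
        Elts.xG Cfsg.Agent.Nodes.RGDTwD4.hp.inList r (φ t) := by
    intro r hr h1 h2 t
    rw [Cfsg.Agent.Nodes.RGDTwD4.xG_eq]
    have h3 := D4U.sig_xG φ hr h1 h2 t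
    rw [Int.cast_one, one_mul] at h3
    exact h3
  obtain ⟨ψ, hL, hψ⟩ := longHom_fold Cfsg.Agent.Nodes.RGDTwD4.isCartan Cfsg.Agent.Nodes.RGDTwD4.foldData
    (Cfsg.Agent.Nodes.RGDTwD4.foldGrp hφ (D4Fixed.twisted_le_fix hK hφ)) 0 1
    (by
      intro k hk
      rw [Cfsg.Agent.Nodes.RGDTwD4.cls0 k hk]
      show k ∈ [14] ↔ k ∈ [chevD4.simple 1]
      rw [simple_D4.1])
    (by
      intro k hk
      rw [Cfsg.Agent.Nodes.RGDTwD4.cls0' k hk]
      show k ∈ [9] ↔ k ∈ [chevD4.neg (chevD4.simple 1)]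
      rw [simple_D4.1, simple_D4.2])
    φ
    (by
      show ∀ t : K, D4Fixed.sig φ (Elts.xG _ (chevD4.simple 1) t) = Elts.xG _ (chevD4.simple 1) (φ t)
      rw [simple_D4.1]
      exact hs 14 (by norm_num) (by decide +kernel) (by decide +kernel))
    (by
      show ∀ t : K, D4Fixed.sig φ (Elts.xG _ (chevD4.neg (chevD4.simple 1)) t) = Elts.xG _ (chevD4.neg (chevD4.simple 1)) (φ t)
      rw [simple_D4.1, simple_D4.2]
      exact hs 9 (by norm_num) (by decide +kernel) (by decide +kernel))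
    (by rw [hc]; decide) hchk.1.2 hchk.1.1 hchk.2
  set hp := Cfsg.Agent.Nodes.RGDTwD4.hp with hhp
  have hC := chkC_D4
  rw [Bool.and_eq_true, Bool.and_eq_true] at hC
  have hC0 : chevD4.cartan 1 (chevD4.simple 0) % 2 = 1 ∧ chevD4.cartan 1 (chevD4.neg (chevD4.simple 0)) % 2 = 1 ∧
    chevD4.cartan 0 (chevD4.simple 1) % 2 = 1 := of_decide_eq_true hC.1.1
  have hC2 : chevD4.cartan 1 (chevD4.simple 2) % 2 = 1 ∧ chevD4.cartan 1 (chevD4.neg (chevD4.simple 2)) % 2 = 1 ∧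
    chevD4.cartan 2 (chevD4.simple 1) % 2 = 1 := of_decide_eq_true hC.1.2
  have hC3 : chevD4.cartan 1 (chevD4.simple 3) % 2 = 1 ∧ chevD4.cartan 1 (chevD4.neg (chevD4.simple 3)) % 2 = 1 ∧
    chevD4.cartan 3 (chevD4.simple 1) % 2 = 1 := of_decide_eq_true hC.2
  have hO := chkO_D4
  rw [Bool.and_eq_true, Bool.and_eq_true] at hO
  have hn := (Cfsg.Agent.Nodes.RGDTwD4.foldGrp hφ (D4Fixed.twisted_le_fix hK hφ)).nG 1
  have hn' : nI hp K (Cfsg.Agent.Nodes.RGDTwD4.J 1) = nn hp K 0 * (nn hp K 2 * nn hp K 3) := by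
    show nI _ K [0, 2, 3] = _
    rw [nI_cons, nI_cons, nI_cons]
    show _ * (_ * (_ * (([] : List _).map _).prod)) = _
    rw [List.map_nil, List.prod_nil, mul_one]
  rw [hn'] at hn
  have k02 : Commute (nn hp K 0) (nn hp K 2) := comm_nn' (k := (0 : Fin 4)) (k' := (2 : Fin 4)) hO.1.1
  have k03 : Commute (nn hp K 0) (nn hp K 3) := comm_nn' (k := (0 : Fin 4)) (k' := (3 : Fin 4)) hO.1.2
  have k23 : Commute (nn hp K 2) (nn hp K 3) := comm_nn' (k := (2 : Fin 4)) (k' := (3 : Fin 4)) hO.2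
  have i0 := conj_nn (hp := hp) (K := K) (i := 1) (k := 0) hC0.1 hC0.2.1
  have i2 := conj_nn (hp := hp) (K := K) (i := 1) (k := 2) hC2.1 hC2.2.1
  have i3 := conj_nn (hp := hp) (K := K) (i := 1) (k := 3) hC3.1 hC3.2.1
  have s0 := nn_sq (hp := hp) (K := K) 0
  have s2 := nn_sq (hp := hp) (K := K) 2
  have s3 := nn_sq (hp := hp) (K := K) 3
  set a := nn hp K 0
  set b := nn hp K 2
  set c := nn hp K 3
  have hsq : a * (b * c) * (a * (b * c)) = hG hp.inList (chevD4.simple ((0 : Fin 4) : ℕ)) (-1 : K) *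
      (hG hp.inList (chevD4.simple ((2 : Fin 4) : ℕ)) (-1) * hG hp.inList (chevD4.simple ((3 : Fin 4) : ℕ)) (-1)) := by
    rw [← s0, ← s2, ← s3]
    calc a * (b * c) * (a * (b * c)) = a * (b * (c * a)) * b * c := by group
      _ = a * (b * (a * c)) * b * c := by rw [k03.eq]
      _ = a * (b * a) * (c * b) * c := by group
      _ = a * (a * b) * (b * c) * c := by rw [k02.eq, k23.eq]
      _ = a * a * (b * b * (c * c)) := by group
  refine fold_false (hp := hp) 1 φ hc hL hψ hn ?_ ?_ ?_ F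
  · have e : ∀ j : GL chevD4.Idx K, j * (a * (b * c)) * j⁻¹ = (j * a * j⁻¹) * ((j * b * j⁻¹) * (j * c * j⁻¹)) := by
      intro j; group
    rw [e]
    have i0' : hG hp.inList (chevD4.simple ((1 : Fin 4) : ℕ)) (-1 : K) * a *
      (hG hp.inList (chevD4.simple ((1 : Fin 4) : ℕ)) (-1 : K))⁻¹ = a⁻¹ := i0
    have i2' : hG hp.inList (chevD4.simple ((1 : Fin 4) : ℕ)) (-1 : K) * b *
      (hG hp.inList (chevD4.simple ((1 : Fin 4) : ℕ)) (-1 : K))⁻¹ = b⁻¹ := i2
    have i3' : hG hp.inList (chevD4.simple ((1 : Fin 4) : ℕ)) (-1 : K) * c *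
      (hG hp.inList (chevD4.simple ((1 : Fin 4) : ℕ)) (-1 : K))⁻¹ = c⁻¹ := i3
    rw [i0', i2', i3', ← mul_inv_rev, ← mul_inv_rev, k23.eq]
    congr 1
    calc c * b * a = c * (b * a) := by group
      _ = c * (a * b) := by rw [k02.eq]
      _ = (c * a) * b := by group
      _ = (a * c) * b := by rw [k03.eq]
      _ = a * (c * b) := by group
  · have t0 := hG_sq (hp := hp) (K := K) 0
    have t2 := hG_sq (hp := hp) (K := K) 2
    have t3 := hG_sq (hp := hp) (K := K) 3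
    have u0 : Commute (a * a) (b * b) := (k02.mul_left k02).mul_right (k02.mul_left k02)
    have u1 : Commute (a * a) (c * c) := (k03.mul_left k03).mul_right (k03.mul_left k03)
    have u2 : Commute (b * b) (c * c) := (k23.mul_left k23).mul_right (k23.mul_left k23)
    rw [hsq]
    rw [s0, s2] at u0
    rw [s0, s3] at u1
    rw [s2, s3] at u2
    generalize hG hp.inList (chevD4.simple ((0 : Fin 4) : ℕ)) (-1 : K) = A at *
    generalize hG hp.inList (chevD4.simple ((2 : Fin 4) : ℕ)) (-1 : K) = B at *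
    generalize hG hp.inList (chevD4.simple ((3 : Fin 4) : ℕ)) (-1 : K) = C at *
    calc A * (B * C) * (A * (B * C)) = A * (B * (C * A)) * B * C := by group
      _ = A * (B * (A * C)) * B * C := by rw [u1.eq]
      _ = A * (B * A) * (C * B) * C := by group
      _ = A * (A * B) * (B * C) * C := by rw [u0.eq, u2.eq]
      _ = A * A * (B * B * (C * C)) := by group
      _ = 1 := by rw [t0, t2, t3, mul_one, mul_one]
  · intro t
    rw [hsq]
    have hm1 : (-1 : K) ≠ 0 := neg_ne_zero.2 one_ne_zero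
    have hr := simple_lt hp.inList (lt_rank hp (1 : Fin 4))
    have v0 := fun t => conj_hG hp K 0 hr (-1) hm1 t
    have v2 := fun t => conj_hG hp K 2 hr (-1) hm1 t
    have v3 := fun t => conj_hG hp K 3 hr (-1) hm1 t
    have w0 : chevD4.cartan ((0 : Fin 4) : ℕ) (chevD4.simple ((1 : Fin 4) : ℕ)) % 2 = 1 := hC0.2.2
    have w2 : chevD4.cartan ((2 : Fin 4) : ℕ) (chevD4.simple ((1 : Fin 4) : ℕ)) % 2 = 1 := hC2.2.2
    have w3 : chevD4.cartan ((3 : Fin 4) : ℕ) (chevD4.simple ((1 : Fin 4) : ℕ)) % 2 = 1 := hC3.2.2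
    rw [zpow_odd w0] at v0
    rw [zpow_odd w2] at v2
    rw [zpow_odd w3] at v3
    have e : ∀ A B C x : GL chevD4.Idx K, A * (B * C) * x * (A * (B * C))⁻¹ = A * (B * (C * x * C⁻¹) * B⁻¹) * A⁻¹ := by
      intro A B C x; group
    rw [e]
    have hm1 : (-1 : K) ≠ 0 := neg_ne_zero.2 one_ne_zero
    have hr := simple_lt hp.inList (lt_rank hp (1 : Fin 4))
    have x3 := v3 t
    have x2 := v2 (-1 * t)
    have x0 := v0 (-1 * (-1 * t))
    rw [x3, x2, x0]
    congr 1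
    ring

/-- `²E₆(3)`, `³D₄(3)` -/
theorem Full.not_fold {X : Type*} [Group X] {D : Set X} (F : Full D)
    (h : OddHalf.LieOddFam.F2E6 X 3 ∨ OddHalf.LieOddFam.F3D4 X 3) : False := by
  rcases h with ⟨K, i1, i2, hK, ⟨e⟩⟩ | ⟨K, i1, i2, hK, ⟨e⟩⟩
  · exact twE6_false hK (F.map_equiv e)
  · exact twD4_false hK (F.map_equiv e)

end Cfsg.Agent.H204.RI
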