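import Cfsg.Agent.H204.RI.LongOrth
import Cfsg.Agent.OddHalf.NI.F1Mat
import Cfsg.Agent.Cit.LongSp
import Cfsg.Agent.S0269
import Cfsg.Agent.S0270

/-!
# `PSL_n(3)`, `PSU_n(3)` (`n ≥ 4`), `PSp_{2n}(3)` (helper204, for S3126)
-/

set_option autoImplicit false
set_option linter.unusedSectionVars false

namespace Cfsg.Agent.H204.RI

open Subgroup Cfsg Matrix Cfsg.Agent.Cit.LongAbs Cfsg.Agent.Cit.LongBlock Cfsg.Agent.Cit.LongQuot
  Cfsg.Agent.Cit.LongMain Cfsg.Agent.Cit.LongModel Cfsg.Agent.Cit.LongInst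

section rep

variable {Γ : Type*} [Group Γ] [Finite Γ] {F : Type*} [Field F] {κ : Type*} [Fintype κ] [DecidableEq κ]
  {D : Set (Γ ⧸ center Γ)}

theorem Full.z0_mem (Fu : Full D) (R : Rep Γ F κ) [Nonempty κ] (h2 : (2 : F) ≠ 0) {F' : Type} [Field F'] [Fintype F']
    (hc : Fintype.card F' = 3) (e : Nonempty (R.E1 ≃* SpecialLinearGroup (Fin 2) F')) : z0 R ∈ D := by
  obtain ⟨e⟩ := e
  exact Fu.mem_of_long3 (OddHalf.NI.F1Mat.z0_order R h2) Cfsg.Agent.Cit.LongMain.z0_mem D1_le_CC (D1_subnormal R h2) hc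
    ((D1Equiv R).symm.trans e)

/-- the second block is not quasisimple -/
theorem Full.not_E2 (Fu : Full D) (R : Rep Γ F κ) [Nonempty κ] (h2 : (2 : F) ≠ 0) {F' : Type} [Field F'] [Fintype F']
    (hc : Fintype.card F' = 3) (e : Nonempty (R.E1 ≃* SpecialLinearGroup (Fin 2) F')) (hq : IsQuasisimple R.E2) :
    False := by
  have hz := Fu.z0_mem R h2 hc e
  refine Fu.not_comp hz (t := z0 R) (J := D2 R) ?_ rfl (fun x hx => mem_centralizer_singleton_iff.1 (D2_le_CC hx))
    D2_le_CC (D2_subnormal R h2) ?_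
  · refine IsPGroup.of_card (n := 1) ?_
    rw [Nat.card_zpowers, Fu.inv _ hz, pow_one]
  · exact SignalizersComponents.Components.isQuasisimple_of_mulEquiv (D2Equiv R) hq

/-- the block swap -/
theorem Full.swap_false (Fu : Full D) (R : Rep Γ F κ) [Nonempty κ] (h2 : (2 : F) ≠ 0) {F' : Type} [Field F'] [Fintype F']
    (hc : Fintype.card F' = 3) (e : Nonempty (R.E1 ≃* SpecialLinearGroup (Fin 2) F')) {y g x : Γ} {c : F}
    (hyt : R.ρ y * R.ρ R.t = c • (R.ρ R.t * R.ρ y)) (hg : g * R.t = y * g) (hxt : x * R.t = R.t * x)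
    (hxy : x * y * x = y) (hx3 : x ^ 3 = 1) (hx : x ∉ center Γ) : False := by
  have hz := Fu.z0_mem R h2 hc e
  have hi : pr Γ y ∈ D := by
    have h1 := Fu.conj _ hz (pr Γ g)
    have e1 : pr Γ g * z0 R * (pr Γ g)⁻¹ = pr Γ y := by
      rw [z0, ← map_mul, hg, map_mul, mul_inv_cancel_right]
    rwa [e1] at h1
  refine Fu.toWC.false_of_inv (j := z0 R) (i := pr Γ y) (x := pr Γ x) hz hi ?_ ?_ ?_ (n := 3) (by decide) ?_ ?_
  · rw [z0, pr_comm]
    refine R.mem_center_of_scalar (c := c) ?_
    have h3 : y * R.t * y⁻¹ * R.t⁻¹ = y * R.t * (R.t * y)⁻¹ := by group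
    rw [h3, map_mul, map_mul, hyt, smul_mul_assoc, ← map_mul, R.ρ_mul_inv]
  · rw [z0, ← map_mul, ← map_mul, hxt]
  · intro h; exact hx (pr_eq_one.1 h)
  · rw [← map_pow, hx3, map_one]
  · rw [← map_inv, ← map_inv, ← map_mul, ← map_mul]
    congr 1
    rw [mul_inv_eq_iff_eq_mul, ← mul_right_inj x, ← mul_assoc, hxy, mul_inv_cancel_left]

end rep

/-! ### `PSL_n(3)` -/

section sl

variable {F : Type} [Field F] [Fintype F]

theorem diag_mul_transv {ι : Type*} [Fintype ι] [DecidableEq ι] (d : ι → F) {a b : ι} (c : F) :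
    Matrix.diagonal d * Matrix.transvection a b c = Matrix.diagonal d + (d a * c) • Matrix.single a b 1 := by
  rw [Matrix.transvection, mul_add, mul_one]
  congr 1
  ext i j
  rw [Matrix.diagonal_mul, Matrix.smul_apply, Matrix.single_apply, Matrix.single_apply]
  by_cases h : a = i ∧ b = j
  · obtain ⟨rfl, rfl⟩ := h
    simp
  · simp [h]

theorem transv_mul_diag {ι : Type*} [Fintype ι] [DecidableEq ι] (d : ι → F) {a b : ι} (c : F) :
    Matrix.transvection a b c * Matrix.diagonal d = Matrix.diagonal d + (c * d b) • Matrix.single a b 1 := by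
  rw [Matrix.transvection, add_mul, one_mul]
  congr 1
  ext i j
  rw [Matrix.mul_diagonal, Matrix.smul_apply, Matrix.single_apply, Matrix.single_apply]
  by_cases h : a = i ∧ b = j
  · obtain ⟨rfl, rfl⟩ := h
    simp
  · simp [h]

/-- the diagonal entries of `tt` -/
def dd (n : ℕ) (F : Type) [Field F] : Fin n → F := fun i => if i.1 < 2 then -1 else 1

theorem tt_eq (k : ℕ) : (tt F k).1 = Matrix.diagonal (dd (2 + k) F) := by
  ext i j
  show (fromBlocks (-1) 0 0 1 : Matrix (Fin 2 ⊕ Fin k) (Fin 2 ⊕ Fin k) F) (ee k i) (ee k j) = _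
  obtain ⟨i', rfl⟩ := (ee k).symm.surjective i
  obtain ⟨j', rfl⟩ := (ee k).symm.surjective j
  rw [Equiv.apply_symm_apply, Equiv.apply_symm_apply, Matrix.diagonal_apply]
  rcases i' with i' | i' <;> rcases j' with j' | j'
  · rw [fromBlocks_apply₁₁]
    by_cases h : i' = j'
    · subst h
      simp only [dd, ee]
      have := i'.2
      simp
      try (intro h; omega)
    · have h1 : (ee k).symm (Sum.inl i') ≠ (ee k).symm (Sum.inl j') := fun h' => h (Sum.inl_injective ((ee k).symm.injective h'))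
      rw [if_neg h1]
      simp [h]
  · rw [fromBlocks_apply₁₂]
    have h1 : (ee k).symm (Sum.inl i') ≠ (ee k).symm (Sum.inr j') := fun h' => by
      have := (ee k).symm.injective h'
      exact absurd this (by simp)
    rw [if_neg h1]; rfl
  · rw [fromBlocks_apply₂₁]
    have h1 : (ee k).symm (Sum.inr i') ≠ (ee k).symm (Sum.inl j') := fun h' => by
      have := (ee k).symm.injective h'
      exact absurd this (by simp)
    rw [if_neg h1]; rfl
  · rw [fromBlocks_apply₂₂]
    by_cases h : i' = j'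
    · subst h
      simp only [dd, ee]
      simp
      try (intro h; omega)
    · have h1 : (ee k).symm (Sum.inr i') ≠ (ee k).symm (Sum.inr j') := fun h' => h (Sum.inr_injective ((ee k).symm.injective h'))
      rw [if_neg h1]
      simp [h]

/-- `PSL_n(3)`, `n ≥ 3` -/
theorem psl_false (hc : Fintype.card F = 3) {n : ℕ} (hn : 3 ≤ n) {D : Set (ProjectiveSpecialLinearGroup (Fin n) F)}
    (Fu : Full D) : False := by
  obtain ⟨k, rfl⟩ : ∃ k, n = 2 + k := ⟨n - 2, by omega⟩
  have hne : Nonempty (Fin k) := ⟨⟨0, by omega⟩⟩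
  have ho : Odd (Fintype.card F) := by rw [hc]; decide
  have h2 : (2 : F) ≠ 0 := SignalizersComponents.SLQuasisimple.two_ne_zero_of_odd ho
  have h3 : (3 : F) = 0 := three_eq_zero hc
  obtain ⟨e1⟩ := (slRep_model F k).toW.equiv1
  obtain ⟨e2⟩ := un_empty_equiv F (Fin 2)
  have hfinG : Finite (SpecialLinearGroup (Fin (2 + k)) F) := inferInstance
  have hz : z0 (slRep F k) ∈ D := Fu.z0_mem (slRep F k) h2 hc ⟨e1.trans e2⟩
  let a : Fin (2 + k) := ⟨0, by omega⟩
  let b : Fin (2 + k) := ⟨1, by omega⟩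
  let c : Fin (2 + k) := ⟨2, by omega⟩
  have hab : a ≠ b := by simp [a, b, Fin.ext_iff]
  have hac : a ≠ c := by simp [a, c, Fin.ext_iff]
  have hbc : b ≠ c := by simp [b, c, Fin.ext_iff]
  -- the permutation
  let σ : Equiv.Perm (Fin (2 + k)) := Equiv.swap a b * Equiv.swap a c
  have hσ : Equiv.Perm.sign σ = 1 := by
    rw [Equiv.Perm.sign_mul, Equiv.Perm.sign_swap hab, Equiv.Perm.sign_swap hac]; decide
  have hσa : σ a = c := by
    show Equiv.swap a b (Equiv.swap a c a) = c
    rw [Equiv.swap_apply_left, Equiv.swap_apply_of_ne_of_ne hac.symm hbc.symm]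
  have hσb : σ b = a := by
    show Equiv.swap a b (Equiv.swap a c b) = a
    rw [Equiv.swap_apply_of_ne_of_ne hab.symm hbc, Equiv.swap_apply_right]
  have hσc : σ c = b := by
    show Equiv.swap a b (Equiv.swap a c c) = b
    rw [Equiv.swap_apply_right, Equiv.swap_apply_left]
  let P : SpecialLinearGroup (Fin (2 + k)) F := ⟨σ.permMatrix F, by
    rw [Matrix.det_permutation, hσ]; simp⟩
  let d' : Fin (2 + k) → F := fun i => dd (2 + k) F (σ i)
  have hd'det : (Matrix.diagonal d').det = 1 := by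
    have h4 : (tt F k).1.det = 1 := (tt F k).2
    rw [tt_eq, Matrix.det_diagonal] at h4
    rw [Matrix.det_diagonal]
    rw [← h4]
    exact Equiv.prod_comp σ (dd (2 + k) F)
  let y : SpecialLinearGroup (Fin (2 + k)) F := ⟨Matrix.diagonal d', hd'det⟩
  have hPy : P * tt F k = y * P := by
    apply Subtype.ext
    show (σ.permMatrix F) * (tt F k).1 = Matrix.diagonal d' * (σ.permMatrix F)
    rw [tt_eq]
    ext i j
    rw [Matrix.mul_diagonal, Matrix.diagonal_mul]
    by_cases h : σ i = j
    · subst h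
      rw [mul_comm]
    · have h5 : (σ.permMatrix F) i j = 0 := by
        simp [Equiv.Perm.permMatrix, PEquiv.toMatrix_apply, Equiv.toPEquiv_apply, h]
      rw [h5, zero_mul, mul_zero]
  let x : SpecialLinearGroup (Fin (2 + k)) F := ⟨Matrix.transvection a b 1, Matrix.det_transvection_of_ne a b hab 1⟩
  have hi : pr _ y ∈ D := by
    have h1 := Fu.conj _ hz (pr _ P)
    have e1 : pr _ P * z0 (slRep F k) * (pr _ P)⁻¹ = pr _ y := by
      show pr _ P * pr _ (tt F k) * (pr _ P)⁻¹ = _
      rw [← map_mul, hPy, map_mul, mul_inv_cancel_right]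
    rwa [e1] at h1
  have hda : dd (2 + k) F a = -1 := by simp [dd, a]
  have hdb : dd (2 + k) F b = -1 := by simp [dd, b]
  have hdc : dd (2 + k) F c = 1 := by simp [dd, c]
  refine Fu.toWC.false_of_inv (j := z0 (slRep F k)) (i := pr _ y) (x := pr _ x) hz hi ?_ ?_ ?_ (n := 3) (by decide) ?_ ?_
  · show pr _ y * pr _ (tt F k) = pr _ (tt F k) * pr _ y
    rw [← map_mul, ← map_mul]
    congr 1
    apply Subtype.ext
    show Matrix.diagonal d' * (tt F k).1 = (tt F k).1 * Matrix.diagonal d'
    rw [tt_eq, Matrix.diagonal_mul_diagonal, Matrix.diagonal_mul_diagonal]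
    congr 1
    funext i; exact mul_comm _ _
  · show pr _ x * pr _ (tt F k) = pr _ (tt F k) * pr _ x
    rw [← map_mul, ← map_mul]
    congr 1
    apply Subtype.ext
    show Matrix.transvection a b 1 * (tt F k).1 = (tt F k).1 * Matrix.transvection a b 1
    rw [tt_eq, transv_mul_diag, diag_mul_transv, hda, hdb, mul_one, one_mul]
  · intro h
    obtain ⟨r, hr⟩ := sl_cen F k _ (pr_eq_one.1 h)
    have h5 : (x.1 : Matrix _ _ F) a b = 0 := by rw [hr]; simp [hab]
    have h6 : (x.1 : Matrix _ _ F) a b = 1 := by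
      show Matrix.transvection a b 1 a b = 1
      simp [Matrix.transvection, hab]
    rw [h5] at h6
    exact zero_ne_one h6
  · rw [← map_pow]
    have : x ^ 3 = 1 := by
      rw [pow_succ, pow_two]
      apply Subtype.ext
      show Matrix.transvection a b 1 * Matrix.transvection a b 1 * Matrix.transvection a b 1 = 1
      rw [Matrix.transvection_mul_transvection_same a b hab, Matrix.transvection_mul_transvection_same a b hab]
      have : (1 : F) + 1 + 1 = 0 := by linear_combination h3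
      rw [this, Matrix.transvection_zero]
    rw [this, map_one]
  · have key : x * y * x = y := by
      apply Subtype.ext
      show Matrix.transvection a b 1 * Matrix.diagonal d' * Matrix.transvection a b 1 = Matrix.diagonal d'
      have hd'a : d' a = 1 := by show dd (2 + k) F (σ a) = 1; rw [hσa, hdc]
      have hd'b : d' b = -1 := by show dd (2 + k) F (σ b) = -1; rw [hσb, hda]
      rw [transv_mul_diag, hd'b, add_mul, diag_mul_transv, hd'a]
      have h7 : (1 * -1 : F) • Matrix.single a b (1 : F) * Matrix.transvection a b 1 = -Matrix.single a b (1 : F) := by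
        rw [Matrix.transvection, mul_add, mul_one, smul_mul_assoc, Matrix.single_mul_single_of_ne _ _ _ _ hab.symm]
        simp
      rw [h7]
      simp
    rw [← map_inv, ← map_inv, ← map_mul, ← map_mul]
    congr 1
    rw [mul_inv_eq_iff_eq_mul, ← mul_right_inj x, ← mul_assoc, key, mul_inv_cancel_left]

end sl

end Cfsg.Agent.H204.RI
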