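import Cfsg.Agent.H204.RI.LongMat

/-!
# `PSU_n(3)` (`n ≥ 4`), `PSp_{2n}(3)` (helper204, for S3126)
-/

set_option autoImplicit false
set_option linter.unusedSectionVars false

namespace Cfsg.Agent.H204.RI

open Subgroup Cfsg Matrix Cfsg.Agent.Cit.LongAbs Cfsg.Agent.Cit.LongBlock Cfsg.Agent.Cit.LongQuot
  Cfsg.Agent.Cit.LongMain Cfsg.Agent.Cit.LongModel Cfsg.Agent.Cit.LongInst
  Cfsg.Agent.LieClassical.HermBasic

/-- an element of order `3` of `SL₂(3)` -/
theorem sl2_three {K : Type} [Field K] (h3 : (3 : K) = 0) :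
    ∃ a : SpecialLinearGroup (Fin 2) K, a ^ 3 = 1 ∧ a ≠ 1 := by
  let a : SpecialLinearGroup (Fin 2) K := ⟨!![1, 1; 0, 1], by simp⟩
  refine ⟨a, ?_, ?_⟩
  · have h : a ^ 3 = a * a * a := by rw [pow_succ, pow_two]
    rw [h]
    apply Subtype.ext
    show !![(1 : K), 1; 0, 1] * !![1, 1; 0, 1] * !![1, 1; 0, 1] = 1
    ext i j
    fin_cases i <;> fin_cases j <;> simp [Matrix.mul_apply, Fin.sum_univ_two]
    linear_combination h3
  · intro h
    have := congrArg (fun A : SpecialLinearGroup (Fin 2) K => A.1 0 1) h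
    simp [a] at this

section blocks

variable {F : Type*} [Field F] {ι : Type*} [Fintype ι] [DecidableEq ι]

/-- the swap -/
def sw (F : Type*) [Field F] (ι : Type*) [Fintype ι] [DecidableEq ι] : Matrix (ι ⊕ ι) (ι ⊕ ι) F :=
  fromBlocks 0 1 1 0

theorem fromBlocks_swap_mul (A B : Matrix ι ι F) (hAB : A * B = 1) (hBA : B * A = 1) :
    fromBlocks A 0 0 B * sw F ι * fromBlocks A 0 0 B = sw F ι := by
  rw [sw, fromBlocks_multiply, fromBlocks_multiply]
  simp [hAB, hBA]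

theorem swap_neg : sw F ι * fromBlocks (-1) 0 0 1 = (-1 : F) • (fromBlocks (-1) 0 0 1 * sw F ι) := by
  rw [sw, fromBlocks_multiply, fromBlocks_multiply, fromBlocks_smul]
  simp

theorem swap_conj (P Q : Matrix ι ι F) :
    fromBlocks P Q (-P) Q * fromBlocks (-1) 0 0 1 = sw F ι * fromBlocks P Q (-P) Q := by
  rw [sw, fromBlocks_multiply, fromBlocks_multiply]
  simp

theorem not_scalar {A B : Matrix ι ι F} {c : F}
    (h : fromBlocks A 0 0 B = c • (1 : Matrix (ι ⊕ ι) (ι ⊕ ι) F)) (hAB : A * B = 1) (h3 : B * B * B = 1) : B = 1 := by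
  rw [← fromBlocks_one, fromBlocks_smul, fromBlocks_inj] at h
  have e1 : A = B := by rw [h.1, h.2.2.2]
  rw [e1] at hAB
  rw [hAB, one_mul] at h3
  exact h3

theorem det_sw : (sw F (Fin 2)).det = 1 := by
  have h : sw F (Fin 2) = fromBlocks 1 1 0 1 * fromBlocks 1 0 (-1) 1 * fromBlocks 1 1 0 1 * fromBlocks (-1) 0 0 1 := by
    rw [sw, fromBlocks_multiply, fromBlocks_multiply, fromBlocks_multiply]
    simp
  rw [h, det_mul, det_mul, det_mul, det_fromBlocks_zero₂₁, det_fromBlocks_zero₁₂, det_fromBlocks_zero₂₁, det_one, det_neg]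
  simp

theorem det_gg (P Q : Matrix ι ι F) : (fromBlocks P Q (-P) Q).det = P.det * (Q + Q).det := by
  have h : fromBlocks P Q (-P) Q = fromBlocks 1 0 (-1) 1 * fromBlocks P Q 0 (Q + Q) := by
    rw [fromBlocks_multiply]
    simp
  rw [h, det_mul, det_fromBlocks_zero₁₂, det_fromBlocks_zero₂₁, det_one]
  simp

end blocks

section su

variable {F : Type} [Field F] [Fintype F]

/-- `PSU_n(3)`, `n ≥ 5` -/
theorem psu_false5 (hF : Fintype.card F = 3 ^ 2) {k : ℕ} (hk : 3 ≤ k) {D : Set (PSU (2 + k) F 3)}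
    (Fu : Full D) : False := by
  have hne : Nonempty (Fin k) := ⟨⟨0, by omega⟩⟩
  have ho : Odd (Fintype.card F) := by rw [hF]; decide
  have h2 : (2 : F) ≠ 0 := SignalizersComponents.SLQuasisimple.two_ne_zero_of_odd ho
  obtain ⟨e1⟩ := (suRep_model hF k (by omega)).toW.equiv1
  obtain ⟨e2⟩ := (suRep_model hF k (by omega)).toW.equiv2
  obtain ⟨e3⟩ := un2_equiv hF
  have hq : IsQuasisimple (Un ({cj hF} : Set (F →+* F)) (Fin k)) := by
    rw [un_cj]
    have h32 : ¬ (k = 3 ∧ 3 = 2) := by omega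
    exact ⟨⟨LieClassical.HermPerfect.commutator_SU_eq_top hF hk h32⟩,
      LieClassical.HermSimple.isSimpleGroup_of_perfect hF hk
        (LieClassical.HermPerfect.commutator_SU_eq_top hF hk h32)⟩
  exact Fu.not_E2 (suRep hF k (by omega)) h2 (F' := KK hF) (card_KK hF) ⟨e1.trans e3⟩
    (SignalizersComponents.Components.isQuasisimple_of_mulEquiv e2.symm hq)

/-- `PSU_4(3)` -/
theorem psu_false4 (hF : Fintype.card F = 3 ^ 2) {D : Set (PSU (2 + 2) F 3)}
    (Fu : Full D) : False := by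
  have hne : Nonempty (Fin 2) := ⟨0⟩
  have ho : Odd (Fintype.card F) := by rw [hF]; decide
  have h2 : (2 : F) ≠ 0 := SignalizersComponents.SLQuasisimple.two_ne_zero_of_odd ho
  have h3 : (3 : F) = 0 := three_su hF (card_KK hF)
  have hm := suRep_model hF 2 (by omega)
  obtain ⟨e1⟩ := hm.toW.equiv1
  obtain ⟨e3⟩ := un2_equiv hF
  -- `a` with `a ^ 4 = -1`
  obtain ⟨a, ha⟩ := exists_norm_eq hF (c := (-1 : F)) (by ring)
  have ha4 : a * a ^ 3 = -1 := ha
  have ha0 : a ≠ 0 := by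
    rintro rfl
    rw [zero_mul] at ha4
    exact one_ne_zero (neg_eq_zero.1 ha4.symm)
  -- the swap
  have hy : Cond {cj hF} (sw F (Fin 2)) := by
    refine ⟨det_sw, fun t ht => ?_⟩
    rw [Set.mem_singleton_iff.1 ht, sw, fromBlocks_transpose, fromBlocks_map, fromBlocks_multiply]
    simp
  obtain ⟨y, hy⟩ := (hm _).2 hy
  have hca : cj hF a = a ^ 3 := cj_apply hF a
  have hcai : cj hF a⁻¹ = (a ^ 3)⁻¹ := by rw [cj_apply, inv_pow]
  -- the conjugating element
  have hg : Cond {cj hF} (fromBlocks (a • (1 : Matrix (Fin 2) (Fin 2) F)) (a⁻¹ • (1 : Matrix (Fin 2) (Fin 2) F))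
      (-(a • (1 : Matrix (Fin 2) (Fin 2) F))) (a⁻¹ • (1 : Matrix (Fin 2) (Fin 2) F))) := by
    refine ⟨?_, fun t ht => ?_⟩
    · rw [det_gg, det_smul, ← add_smul, det_smul, det_one, Fintype.card_fin]
      field_simp
      linear_combination h3
    · rw [Set.mem_singleton_iff.1 ht, fromBlocks_transpose, fromBlocks_map, fromBlocks_multiply, ← fromBlocks_one,
        fromBlocks_inj, ← neg_smul]
      have key : ∀ c d : F, (c • (1 : Matrix (Fin 2) (Fin 2) F))ᵀ * (d • (1 : Matrix (Fin 2) (Fin 2) F)).map (cj hF) =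
          (c * cj hF d) • 1 := by
        intro c d
        rw [transpose_smul, transpose_one]
        ext i j
        fin_cases i <;> fin_cases j <;> simp [Matrix.mul_apply, Fin.sum_univ_two]
      have h4 : cj hF (-a) = - a ^ 3 := by rw [map_neg, hca]
      rw [key, key, key, key, key, key, key, h4, hca, hcai, ← add_smul, ← add_smul, ← add_smul, ← add_smul]
      have hai : a⁻¹ * (a ^ 3)⁻¹ = -1 := by
        rw [← mul_inv, ha4]; norm_num
      refine ⟨?_, ?_, ?_, ?_⟩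
      · have : a * a ^ 3 + -a * -a ^ 3 = 1 := by linear_combination 2 * ha4 - h3
        rw [this, one_smul]
      · have : a * (a ^ 3)⁻¹ + -a * (a ^ 3)⁻¹ = 0 := by ring
        rw [this, zero_smul]
      · have : a⁻¹ * a ^ 3 + a⁻¹ * -a ^ 3 = 0 := by ring
        rw [this, zero_smul]
      · have : a⁻¹ * (a ^ 3)⁻¹ + a⁻¹ * (a ^ 3)⁻¹ = 1 := by linear_combination 2 * hai - h3
        rw [this, one_smul]
  obtain ⟨g, hg⟩ := (hm _).2 hg
  -- the element of order three
  obtain ⟨b, hb3, hb1⟩ := sl2_three (K := KK hF) (three_eq_zero (card_KK hF))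
  set A : Un ({cj hF} : Set (F →+* F)) (Fin 2) := e3.symm b with hA
  have hA3 : A ^ 3 = 1 := by rw [hA, ← map_pow, hb3, map_one]
  have hA1 : A ≠ 1 := by
    rw [hA]; intro h; exact hb1 (by simpa using h)
  have hA3' : A.1.1 * A.1.1 * A.1.1 = 1 := by
    have : A * A * A = 1 := by rw [← hA3, pow_succ, pow_two]
    exact congrArg (fun B : Un ({cj hF} : Set (F →+* F)) (Fin 2) => B.1.1) this
  obtain ⟨x, hx⟩ := (hm _).2 ((A⁻¹).2.fromBlocks A.2)
  have hAA : (A⁻¹).1.1 * A.1.1 = 1 :=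
    congrArg (fun B : Un ({cj hF} : Set (F →+* F)) (Fin 2) => B.1.1) (inv_mul_cancel A)
  have hAA' : A.1.1 * (A⁻¹).1.1 = 1 :=
    congrArg (fun B : Un ({cj hF} : Set (F →+* F)) (Fin 2) => B.1.1) (mul_inv_cancel A)
  have ht := (suRep hF 2 (by omega)).t_eq
  refine Fu.swap_false (suRep hF 2 (by omega)) h2 (F' := KK hF) (card_KK hF) ⟨e1.trans e3⟩ (y := y) (g := g) (x := x)
    (c := -1) ?_ ?_ ?_ ?_ ?_ ?_
  · rw [hy, ht]; exact swap_neg
  · apply (suRep hF 2 (by omega)).inj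
    rw [map_mul, map_mul, hg, hy, ht]; exact swap_conj _ _
  · apply (suRep hF 2 (by omega)).inj
    rw [map_mul, map_mul, hx, ht, fromBlocks_multiply, fromBlocks_multiply]
    simp
  · apply (suRep hF 2 (by omega)).inj
    rw [map_mul, map_mul, hx, hy]; exact fromBlocks_swap_mul _ _ hAA hAA'
  · apply (suRep hF 2 (by omega)).inj
    rw [map_pow, hx, map_one, pow_succ, pow_two, fromBlocks_multiply, fromBlocks_multiply, ← fromBlocks_one,
      fromBlocks_inj]
    have hB : (A⁻¹).1.1 * (A⁻¹).1.1 * (A⁻¹).1.1 = 1 := by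
      have : A⁻¹ * A⁻¹ * A⁻¹ = 1 := by rw [← pow_two, ← pow_succ, inv_pow, hA3, inv_one]
      exact congrArg (fun B : Un ({cj hF} : Set (F →+* F)) (Fin 2) => B.1.1) this
    refine ⟨?_, ?_, ?_, ?_⟩
    · simpa using hB
    · simp
    · simp
    · simpa using hA3'
  · intro h
    obtain ⟨c, hc⟩ := (suRep hF 2 (by omega)).cen x h
    rw [hx] at hc
    exact hA1 (Subtype.ext (Subtype.ext (not_scalar hc hAA hA3')))

/-- `PSU_n(3)`, `n ≥ 4` -/
theorem psu_false (hF : Fintype.card F = 3 ^ 2) {n : ℕ} (hn : 4 ≤ n) {D : Set (PSU n F 3)}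
    (Fu : Full D) : False := by
  obtain ⟨k, rfl⟩ : ∃ k, n = 2 + k := ⟨n - 2, by omega⟩
  rcases (show k = 2 ∨ 3 ≤ k by omega) with rfl | hk
  · exact psu_false4 hF Fu
  · exact psu_false5 hF hk Fu

end su

section sp

open Cfsg.Agent.Cit.LongSp

variable {F : Type} [Field F] [Fintype F]

/-- `PSp_4(3)` -/
theorem psp_false4 (hc : Fintype.card F = 3) {D : Set (PSp 2 F)} (Fu : Full D) : False := by
  have hne : Nonempty (Fin 2) := ⟨0⟩
  have ho : Odd (Fintype.card F) := by rw [hc]; decide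
  have h2 : (2 : F) ≠ 0 := SignalizersComponents.SLQuasisimple.two_ne_zero_of_odd ho
  have h3 : (3 : F) = 0 := three_eq_zero hc
  obtain ⟨e1⟩ := (spRep_model F).equiv1
  obtain ⟨e2⟩ := un_empty_equiv F (Fin 2)
  have ex : ∀ M : Matrix (Fin 2 ⊕ Fin 2) (Fin 2 ⊕ Fin 2) F,
      M * fromBlocks (jj F) 0 0 (jj F) * Mᵀ = fromBlocks (jj F) 0 0 (jj F) → ∃ g, (spRep F).ρ g = M := by
    intro M hM
    refine ⟨⟨M.submatrix e4 e4, (sp_iff M).2 hM⟩, ?_⟩
    rw [spRep_ρ, e4_e4]
  obtain ⟨y, hy⟩ := ex (sw F (Fin 2)) (by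
    rw [sw, fromBlocks_transpose, fromBlocks_multiply, fromBlocks_multiply]
    simp)
  obtain ⟨g, hg⟩ := ex (fromBlocks !![1, 0; 0, -1] !![1, 0; 0, -1] (-!![1, 0; 0, -1]) !![1, 0; 0, -1]) (by
    rw [fromBlocks_transpose, fromBlocks_multiply, fromBlocks_multiply, fromBlocks_inj]
    have e1 : !![(1 : F), 0; 0, -1] * jj F * (!![1, 0; 0, -1])ᵀ = - jj F := by
      rw [mul_jj]
      simp
    have e2 : - jj F + - jj F = jj F := by
      ext i j
      fin_cases i <;> fin_cases j <;> simp [jj]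
      · linear_combination h3
      · linear_combination -h3
    have e0 : jj F + - jj F = 0 := add_neg_cancel _
    simp only [mul_zero, zero_add, add_zero, transpose_neg, neg_mul, mul_neg, neg_neg, e1, e2, e0]
    simp)
  obtain ⟨x, hx⟩ := ex (fromBlocks !![1, -1; 0, 1] 0 0 !![1, 1; 0, 1]) (by
    rw [fromBlocks_transpose, fromBlocks_multiply, fromBlocks_multiply, fromBlocks_inj]
    simp only [mul_zero, zero_mul, zero_add, add_zero, transpose_zero, mul_jj, true_and]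
    simp)
  have hAA : !![(1 : F), -1; 0, 1] * !![1, 1; 0, 1] = 1 := by
    ext i j
    fin_cases i <;> fin_cases j <;> simp [Matrix.mul_apply, Fin.sum_univ_two]
  have hAA' : !![(1 : F), 1; 0, 1] * !![1, -1; 0, 1] = 1 := by
    ext i j
    fin_cases i <;> fin_cases j <;> simp [Matrix.mul_apply, Fin.sum_univ_two]
  have hA3 : !![(1 : F), 1; 0, 1] * !![1, 1; 0, 1] * !![1, 1; 0, 1] = 1 := by
    ext i j
    fin_cases i <;> fin_cases j <;> simp [Matrix.mul_apply, Fin.sum_univ_two]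
    linear_combination h3
  have hB3 : !![(1 : F), -1; 0, 1] * !![1, -1; 0, 1] * !![1, -1; 0, 1] = 1 := by
    ext i j
    fin_cases i <;> fin_cases j <;> simp [Matrix.mul_apply, Fin.sum_univ_two]
    linear_combination -h3
  have ht := (spRep F).t_eq
  refine Fu.swap_false (spRep F) h2 hc ⟨e1.trans e2⟩ (y := y) (g := g) (x := x)
    (c := -1) ?_ ?_ ?_ ?_ ?_ ?_
  · rw [hy, ht]; exact swap_neg
  · apply (spRep F).inj
    rw [map_mul, map_mul, hg, hy, ht]; exact swap_conj _ _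
  · apply (spRep F).inj
    rw [map_mul, map_mul, hx, ht, fromBlocks_multiply, fromBlocks_multiply]
    simp
  · apply (spRep F).inj
    rw [map_mul, map_mul, hx, hy]; exact fromBlocks_swap_mul _ _ hAA hAA'
  · apply (spRep F).inj
    rw [map_pow, hx, map_one, pow_succ, pow_two, fromBlocks_multiply, fromBlocks_multiply, ← fromBlocks_one,
      fromBlocks_inj]
    refine ⟨?_, ?_, ?_, ?_⟩
    · simpa only [mul_zero, zero_mul, add_zero, zero_add] using hB3
    · simp
    · simp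
    · simpa only [mul_zero, zero_mul, add_zero, zero_add] using hA3
  · intro h
    obtain ⟨c, hc⟩ := (spRep F).cen x h
    rw [hx] at hc
    have := congrFun (congrFun (not_scalar hc hAA hA3) 0) 1
    simp at this

section big

variable (k : ℕ) (F)

theorem sp_block2 (P : Matrix (Fin k ⊕ Fin k) (Fin k ⊕ Fin k) F) :
    (fromBlocks (1 : Matrix (Fin 2) (Fin 2) F) 0 0 P).submatrix (OddHalf.NI.F1Mat.eS k) (OddHalf.NI.F1Mat.eS k) ∈
      symplecticGroup (Fin (1 + k)) F ↔ P ∈ symplecticGroup (Fin k) F := by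
  rw [OddHalf.NI.F1Mat.mul_submatrix_iff, fromBlocks_transpose, fromBlocks_multiply, fromBlocks_multiply,
    fromBlocks_inj, SymplecticGroup.mem_iff]
  simp only [Matrix.zero_mul, Matrix.mul_zero, add_zero, zero_add, transpose_zero, transpose_one,
    Matrix.one_mul, Matrix.mul_one, true_and]

theorem spRepG_e2 : Nonempty ((OddHalf.NI.F1Mat.spRepG F k).E2 ≃* symplecticGroup (Fin k) F) := by
  set R := OddHalf.NI.F1Mat.spRepG F k with hR
  have h : ∀ P, (∃ g, R.ρ g = fromBlocks 1 0 0 P) ↔ P ∈ symplecticGroup (Fin k) F := by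
    intro P
    rw [← sp_block2 F k]
    constructor
    · rintro ⟨g, hg⟩
      have h1 : g.1.submatrix (OddHalf.NI.F1Mat.eS k).symm (OddHalf.NI.F1Mat.eS k).symm = fromBlocks 1 0 0 P := hg
      rw [← h1]
      simp
    · intro h
      refine ⟨⟨_, h⟩, ?_⟩
      change Matrix.submatrix (Matrix.submatrix _ _ _) _ _ = _
      simp
  have h0 : ∀ x : R.E2, R.ρ x = fromBlocks 1 0 0 (R.ρ x).toBlocks₂₂ ∧
      (R.ρ x).toBlocks₂₂ ∈ symplecticGroup (Fin k) F := by
    rintro ⟨x, P, hP⟩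
    rw [hP, toBlocks_fromBlocks₂₂]
    exact ⟨rfl, (h P).1 ⟨x, hP⟩⟩
  let φ : R.E2 →* symplecticGroup (Fin k) F :=
    { toFun := fun x => ⟨(R.ρ x).toBlocks₂₂, (h0 x).2⟩
      map_one' := by
        apply Subtype.ext
        change (R.ρ ((1 : R.E2) : _)).toBlocks₂₂ = 1
        rw [Subgroup.coe_one, map_one, ← fromBlocks_one, toBlocks_fromBlocks₂₂]
      map_mul' := by
        intro x y
        apply Subtype.ext
        change (R.ρ ((x * y : R.E2) : _)).toBlocks₂₂ = (R.ρ x).toBlocks₂₂ * (R.ρ y).toBlocks₂₂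
        rw [Subgroup.coe_mul, map_mul]
        nth_rewrite 1 [(h0 x).1, (h0 y).1]
        rw [fromBlocks_multiply, toBlocks_fromBlocks₂₂]
        simp }
  refine ⟨MulEquiv.ofBijective φ ⟨?_, ?_⟩⟩
  · intro x y hxy
    have h1 : (R.ρ x).toBlocks₂₂ = (R.ρ y).toBlocks₂₂ :=
      congrArg (fun A : symplecticGroup (Fin k) F => A.1) hxy
    apply Subtype.ext
    apply R.inj
    rw [(h0 x).1, (h0 y).1, h1]
  · rintro ⟨M, hM⟩
    obtain ⟨g, hg⟩ := (h M).2 hM
    refine ⟨⟨g, M, hg⟩, ?_⟩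
    apply Subtype.ext
    change (R.ρ g).toBlocks₂₂ = M
    rw [hg, toBlocks_fromBlocks₂₂]

end big

/-- `PSp_{2m}(3)`, `m ≥ 3` -/
theorem psp_false6 (hc : Fintype.card F = 3) {k : ℕ} (hk : 2 ≤ k) {D : Set (PSp (1 + k) F)} (Fu : Full D) :
    False := by
  have hne : Nonempty (Fin k ⊕ Fin k) := ⟨Sum.inl ⟨0, by omega⟩⟩
  have ho : Odd (Fintype.card F) := by rw [hc]; decide
  have h2 : (2 : F) ≠ 0 := SignalizersComponents.SLQuasisimple.two_ne_zero_of_odd ho
  obtain ⟨e2⟩ := spRepG_e2 F k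
  have hq : IsQuasisimple (symplecticGroup (Fin k) F) :=
    ⟨⟨S0269.result k (by omega)⟩, S0270.result k hk (by omega)⟩
  have : Finite (symplecticGroup (Fin (1 + k)) F) := inferInstance
  exact Fu.not_E2 (OddHalf.NI.F1Mat.spRepG F k) h2 hc (OddHalf.NI.F1Mat.spRepG_e1 F k)
    (SignalizersComponents.Components.isQuasisimple_of_mulEquiv e2.symm hq)

/-- `PSp_{2m}(3)`, `m ≥ 2` -/
theorem psp_false (hc : Fintype.card F = 3) {m : ℕ} (hm : 2 ≤ m) {D : Set (PSp m F)} (Fu : Full D) :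
    False := by
  obtain ⟨k, rfl⟩ : ∃ k, m = 1 + k := ⟨m - 1, by omega⟩
  rcases (show k = 1 ∨ 2 ≤ k by omega) with rfl | hk
  · exact psp_false4 hc Fu
  · exact psp_false6 hc hk Fu

end sp

/-- matrix groups over `F_3` -/
theorem Full.not_mat {X : Type*} [Group X] [Finite X] {D : Set X} (Fu : Full D) :
    OddHalf.LieOddFam.FL X 3 ∨ OddHalf.LieOddFam.FSp X 3 → False := by
  rintro (⟨F, _, _, n, hF, hn, ⟨e⟩⟩ | ⟨F, _, _, m, hF, hm, ⟨e⟩⟩)
  · exact psl_false hF hn (Fu.map_equiv e)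
  · exact psp_false hF hm (Fu.map_equiv e)

/-- unitary groups over `F_9` -/
theorem Full.unitary {X : Type*} [Group X] [Finite X] {D : Set X} (Fu : Full D) :
    OddHalf.LieOddFam.FU X 3 → ∃ (F : Type) (_ : Field F) (_ : Fintype F), Fintype.card F = 3 ^ 2 ∧
      Nonempty (X ≃* PSU 3 F 3) := by
  rintro ⟨F, _, _, n, hF, hn, ⟨e⟩⟩
  rcases (show n = 3 ∨ 4 ≤ n by omega) with rfl | hn
  · exact ⟨F, _, _, hF, ⟨e⟩⟩
  · exact (psu_false hF hn (Fu.map_equiv e)).elim

end Cfsg.Agent.H204.RI
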