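import Cfsg.Agent.H204.RI.LongFold
import Cfsg.Agent.OddHalf.LongSL.Orth

/-!
# The orthogonal groups over the field with three elements (helper204, for S3126)
-/

set_option autoImplicit false

namespace Cfsg.Agent.H204.RI

open CoxeterSystem Cfsg.Agent.ChevalleyStructure.CoxeterGeom Cfsg.Agent.Tits.Roots Cfsg.Agent.Tits.Core
  Cfsg.Agent.Tits.RootComb Cfsg.Agent.Nodes.Comb Cfsg.Agent.Nodes.Reps Cfsg.Agent.Nodes.BNOf
  Cfsg.Agent.Nodes.RGDLib
open QuadraticMap
open Matrix (SpecialLinearGroup)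
open Cfsg.Agent.LieClassical Cfsg.Agent.LieClassical.OrthCore Cfsg.Agent.LieClassical.OrthTrans
open Cfsg.Agent.LieClassical.OrthSimple Cfsg.Agent.LieClassical.OrthFinite Cfsg.Agent.LieClassical.OrthForms
open Cfsg.Agent.LieClassical.SLTwoUnipotent (eq_top_of_u_mem_of_l_mem)
open Cfsg.Agent.TitsThree Cfsg.Agent.TitsThree.Siegel Cfsg.Agent.TitsThree.SiegelGen
  Cfsg.Agent.TitsThree.WittFrame Cfsg.Agent.TitsThree.WittWeyl Cfsg.Agent.TitsThree.WBridge
  Cfsg.Agent.TitsThree.KSideO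
open Cfsg.Agent.Nodes
open Cfsg.Agent.Nodes.WittRoot (Amb XG ZG PG PG_ne PG_self Mono XG_swap)
open Cfsg.Agent.Nodes.WittRGD (Tor mem_Tor b_ne_zero eq_or_ng)
open Cfsg.Agent.Nodes.RGDOrth
open Cfsg.Agent.OddHalf.LongSL.OrthPhi

open Cfsg.Agent.OddHalf.LongSL Cfsg.Agent.OddHalf.LongSL.Orth

section General

variable {ι : Type} [Fintype ι] [DecidableEq ι] {F : Type} [Field F] [Fintype F] {Q : QuadraticForm F (ι → F)}
  {m : ℕ} (W : WFrame (PO Q) m)

set_option maxHeartbeats 2000000 in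
theorem longHom_of_frame (hG : Good Q) {p : ℕ} [Fact p.Prime] (hp2 : Odd p) (hF : Odd (Fintype.card F))
    {l : ℕ} {M : CoxeterMatrix (Fin l)}
    {A : Fin l → Fin l → ℤ} {h : IsCartan M A} {T : Subgroup ((ι → F) ≃ₗ[F] (ι → F))}
    {n : Fin l → ((ι → F) ≃ₗ[F] (ι → F))} {X : (Fin l → ℤ) → Subgroup ((ι → F) ≃ₗ[F] (ι → F))}
    (hW : Finite M.Group) (R : RGD M.toCoxeterSystem h p T n X)
    (hX : ∀ x, IsRoot M.toCoxeterSystem h x → X x ≤ E Q) (hn : ∀ i, n i ∈ E Q)
    (hgen : E Q ≤ G1 M.toCoxeterSystem h X)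
    {x y z : Fin m × Bool} (hxy : x.1 ≠ y.1) (hzx : z.1 ≠ x.1) (hzy : z.1 ≠ y.1)
    {a : Fin l → ℤ} (ha : IsRoot M.toCoxeterSystem h a) (hXa : X a = XG (toFrame W) x y)
    (hXa' : X (-a) = XG (toFrame W) (neg y) (neg x)) (hjT : Phi (toFrame W) hxy (-1) ∈ T)
    (hinv : ∀ r, IsRoot M.toCoxeterSystem h r → r ≠ a → r ≠ -a →
      (∀ u ∈ X r, Phi (toFrame W) hxy (-1) * u * (Phi (toFrame W) hxy (-1))⁻¹ = u⁻¹) ∨
      ∀ u ∈ X r, (∀ t, Commute u ((toFrame W).X x y t)) ∧ ∀ t, Commute u ((toFrame W).X (neg y) (neg x) t)) :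
    LongHom (phiP W hG hxy) := by
  have hfin : Finite ((ι → F) ≃ₗ[F] (ι → F)) :=
    Finite.of_injective (fun g : (ι → F) ≃ₗ[F] (ι → F) => (g : (ι → F) → (ι → F))) DFunLike.coe_injective
  have R1 := rgd_restrict R (E Q) hX hn
  have R2 := rgd_map_of_ker_le_center R1 (toPOmega hG) fun g hg => center_of_toPOmega hG hg
  have e1 : G1 M.toCoxeterSystem h (fun x => (X x).subgroupOf (E Q)) = ⊤ := by
    have e2 : (G1 M.toCoxeterSystem h X).subgroupOf (E Q) =
        G1 M.toCoxeterSystem h (fun x => (X x).subgroupOf (E Q)) := by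
      unfold G1 RGD.Sup
      exact iSup_subgroupOf (fun z : {x | IsRoot M.toCoxeterSystem h x} => X z.1) fun z => hX z.1 z.2
    rw [← e2]
    exact Subgroup.subgroupOf_eq_top.2 hgen
  have e3 : (G1 M.toCoxeterSystem h (fun x => (X x).subgroupOf (E Q))).map (toPOmega hG) =
      G1 M.toCoxeterSystem h (fun x => ((X x).subgroupOf (E Q)).map (toPOmega hG)) := by
    unfold G1 RGD.Sup
    rw [Subgroup.map_iSup]
  have e4 : G1 M.toCoxeterSystem h (fun x => ((X x).subgroupOf (E Q)).map (toPOmega hG)) = ⊤ := by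
    rw [← e3, e1, Subgroup.map_top_of_surjective _ (toPOmega_surjective hG)]
  have hGG : Bruhat.GG M.toCoxeterSystem h ((T.subgroupOf (E Q)).map (toPOmega hG))
      (fun x => ((X x).subgroupOf (E Q)).map (toPOmega hG)) = ⊤ := by
    rw [eq_top_iff, ← e4]
    exact le_sup_right
  obtain ⟨φ, hφd⟩ : ∃ φ, φ = phiP W hG hxy := ⟨_, rfl⟩
  rw [← hφd]
  have hφ : Function.Injective φ := by rw [hφd]; exact phiP_injective W hG hxy hzx hzy
  have hu : ∀ t, φ (SLTwoUnipotent.u t) = toPOmega hG ⟨(toFrame W).X x y t, X_mem W _ _ _⟩ := fun t => by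
    rw [hφd]; exact phiP_u W hG hxy t
  have hl : ∀ t, φ (SLTwoUnipotent.l t) = toPOmega hG ⟨(toFrame W).X (neg y) (neg x) t, X_mem W _ _ _⟩ := fun t => by
    rw [hφd]; exact phiP_l W hG hxy t
  have hj : φ (-1) = toPOmega hG ⟨Phi (toFrame W) hxy (-1), Phi_mem W hxy _⟩ := by rw [hφd]; rfl
  have hcomm : ∀ g, φ (-1) * φ g = φ g * φ (-1) := fun g => by rw [hφd]; exact phiP_comm W hG hxy g
  clear hφd
  refine longHom_of_rgd R2 hp2 hGG ha hF φ hφ rfl ?_ ?_ ?_
  · rw [hj]; exact ⟨_, hjT, rfl⟩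
  · apply le_antisymm
    · have key : (JX (fun x => ((X x).subgroupOf (E Q)).map (toPOmega hG)) (φ (-1)) a).comap φ = ⊤ := by
        apply eq_top_of_u_mem_of_l_mem
        · intro t
          rw [Subgroup.mem_comap]
          refine (le_sup_left : ZX _ (φ (-1)) a ≤ _) (mem_ZX.2 ⟨?_, hcomm _⟩)
          rw [hu]
          refine ⟨_, ?_, rfl⟩
          show (toFrame W).X x y t ∈ X a
          rw [hXa]
          exact ⟨t, rfl⟩
        · intro t
          rw [Subgroup.mem_comap]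
          refine (le_sup_right : ZX _ (φ (-1)) (-a) ≤ _) (mem_ZX.2 ⟨?_, hcomm _⟩)
          rw [hl]
          refine ⟨_, ?_, rfl⟩
          show (toFrame W).X (neg y) (neg x) t ∈ X (-a)
          rw [hXa']
          exact ⟨t, rfl⟩
      rintro _ ⟨g, rfl⟩
      exact Subgroup.mem_comap.1 (key ▸ Subgroup.mem_top g)
    · refine sup_le ?_ ?_
      · intro w hw
        obtain ⟨v, hv, rfl⟩ := (mem_ZX.1 hw).1
        have h1 : (v : (ι → F) ≃ₗ[F] (ι → F)) ∈ X a := hv
        rw [hXa] at h1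
        obtain ⟨t, ht⟩ := h1
        refine ⟨SLTwoUnipotent.u t, ?_⟩
        rw [hu]
        exact congrArg (toPOmega hG) (Subtype.ext ht.symm)
      · intro w hw
        obtain ⟨v, hv, rfl⟩ := (mem_ZX.1 hw).1
        have h1 : (v : (ι → F) ≃ₗ[F] (ι → F)) ∈ X (-a) := hv
        rw [hXa'] at h1
        obtain ⟨t, ht⟩ := h1
        refine ⟨SLTwoUnipotent.l t, ?_⟩
        rw [hl]
        exact congrArg (toPOmega hG) (Subtype.ext ht.symm)
  · intro r hr hra hra'
    rcases hinv r hr hra hra' with h1 | h1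
    · left
      rintro _ ⟨v, hv, rfl⟩
      have h2 := h1 v hv
      rw [hj, ← map_inv, ← map_inv, ← map_mul, ← map_mul]
      exact congrArg (toPOmega hG) (Subtype.ext h2)
    · right
      rintro _ ⟨v, hv, rfl⟩ _ ⟨g, rfl⟩
      obtain ⟨h2, h3⟩ := h1 v hv
      have key : (Subgroup.centralizer ({toPOmega hG v} : Set (Cfsg.POmega F ⇑Q))).comap φ = ⊤ := by
        apply eq_top_of_u_mem_of_l_mem
        · intro t
          rw [Subgroup.mem_comap, Subgroup.mem_centralizer_iff]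
          rintro _ rfl
          rw [hu, ← map_mul, ← map_mul]
          exact congrArg (toPOmega hG) (Subtype.ext (h2 t))
        · intro t
          rw [Subgroup.mem_comap, Subgroup.mem_centralizer_iff]
          rintro _ rfl
          rw [hl, ← map_mul, ← map_mul]
          exact congrArg (toPOmega hG) (Subtype.ext (h3 t))
      have h5 : g ∈ (Subgroup.centralizer ({toPOmega hG v} : Set (Cfsg.POmega F ⇑Q))).comap φ := by
        rw [key]; trivial
      exact Subgroup.mem_centralizer_iff.1 h5 _ (Set.mem_singleton _)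


omit [Fintype F] in
theorem u_eq (t : F) : (SLTwoUnipotent.u t : SpecialLinearGroup (Fin 2) F) = ChevalleyStructure.SL2Hom.up t := by
  apply Subtype.ext
  rfl

omit [Fintype F] in
theorem l_eq (t : F) : (SLTwoUnipotent.l t : SpecialLinearGroup (Fin 2) F) = ChevalleyStructure.SL2Hom.lo t := by
  apply Subtype.ext
  rfl

/-- the final step for the orthogonal groups -/
theorem orth_false (hG : Good Q) (hA : Amb (toFrame W) (E Q)) (hc : Fintype.card F = 3)
    {x y z : Fin m × Bool} (hxy : x.1 ≠ y.1) (hyz : y.1 ≠ z.1) (hzx : z.1 ≠ x.1) (hL : LongHom (phiP W hG hxy))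
    {Dd : Set (Cfsg.POmega F ⇑Q)} (Fu : Full Dd) : False := by
  have hfin : Finite ((ι → F) ≃ₗ[F] (ι → F)) :=
    Finite.of_injective (fun g : (ι → F) ≃ₗ[F] (ι → F) => (g : (ι → F) → (ι → F))) DFunLike.coe_injective
  have hfin2 : Finite (Cfsg.POmega F ⇑Q) := Finite.of_surjective _ (toPOmega_surjective hG)
  have hj := Fu.mem_of_longHom hc hL
  have h3K : (3 : F) = 0 := by
    have := Nat.cast_card_eq_zero F
    rw [hc] at this
    exact_mod_cast this
  have h1 : ∀ w : Fin m × Bool, w.1 ≠ x.1 → w.1 ≠ y.1 → Phi (toFrame W) hxy (-1) ((toFrame W).b w) =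
      (1 : F) • (toFrame W).b w := fun w h h' => by rw [Phi_of_ne _ hxy _ h h', one_smul]
  have h2 : ∀ w : Fin m × Bool, w.1 ≠ y.1 → w.1 ≠ z.1 → Phi (toFrame W) hyz (-1) ((toFrame W).b w) =
      (1 : F) • (toFrame W).b w := fun w h h' => by rw [Phi_of_ne _ hyz _ h h', one_smul]
  have key : ∀ {x' y' : Fin m × Bool} (hxy' : x'.1 ≠ y'.1) (a b b' : (ι → F) ≃ₗ[F] (ι → F)) (ha : a ∈ E Q)
      (hb : b ∈ E Q) (hb' : b' ∈ E Q), a * b * a⁻¹ = b' →
      toPOmega hG ⟨a, ha⟩ * toPOmega hG ⟨b, hb⟩ * (toPOmega hG ⟨a, ha⟩)⁻¹ = toPOmega hG ⟨b', hb'⟩ := by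
    intro x' y' _ a b b' ha hb hb' h
    rw [← map_inv, ← map_mul, ← map_mul]
    exact congrArg (toPOmega hG) (Subtype.ext h)
  have hu : ∀ t, phiP W hG hxy (-1) * phiP W hG hyz (ChevalleyStructure.SL2Hom.up t) * (phiP W hG hxy (-1))⁻¹ =
      phiP W hG hyz (ChevalleyStructure.SL2Hom.up (-t)) := by
    intro t
    rw [← u_eq, ← u_eq, phiP_u, phiP_u]
    refine key hxy _ _ _ _ _ _ ?_
    rw [cj_X W hxy (hA := hA) hyz (l := -1) (k := 1) (j_of_eq _ hxy (Or.inr rfl)) (h1 z hzx hyz.symm), mul_one,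
      neg_one_mul]
  have hl : ∀ t, phiP W hG hxy (-1) * phiP W hG hyz (ChevalleyStructure.SL2Hom.lo t) * (phiP W hG hxy (-1))⁻¹ =
      phiP W hG hyz (ChevalleyStructure.SL2Hom.lo (-t)) := by
    intro t
    rw [← l_eq, ← l_eq, phiP_l, phiP_l]
    refine key hxy _ _ _ _ _ _ ?_
    rw [cj_X W hxy (hA := hA) (c := neg z) (d := neg y) hyz.symm (l := 1) (k := -1) (h1 (neg z) hzx hyz.symm)
      (j_of_eq _ hxy (Or.inr rfl)), one_mul, neg_one_mul]
  have hw : phiP W hG hyz (wm F) * phiP W hG hyz (wm F) = phiP W hG hyz (-1) := by rw [← map_mul, wm_sq]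
  refine Fu.toWC.false_of_n (j := phiP W hG hxy (-1)) (n := phiP W hG hyz (wm F))
    (x := phiP W hG hxy (ChevalleyStructure.SL2Hom.up 1)) hj
    (conj_wm0 hu hl) ?_ ?_ ?_ ?_ (k := 3) (by decide) ?_
  · rw [hw, ← map_mul, neg_one_mul, _root_.neg_neg, map_one]
  · exact (phiP_comm W hG hxy _).symm
  · rw [hw, ← u_eq, phiP_u]
    have h4 := key hyz (Phi (toFrame W) hyz (-1)) ((toFrame W).X x y 1) ((toFrame W).X x y (-1)) (Phi_mem W hyz _)
      (X_mem W _ _ _) (X_mem W _ _ _) (by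
        rw [cj_X W hyz (hA := hA) hxy (l := 1) (k := -1) (h2 x hxy hzx.symm) (j_of_eq _ hyz (Or.inl rfl)), one_mul,
          mul_one])
    refine h4.trans ?_
    rw [← map_inv]
    refine congrArg (toPOmega hG) (Subtype.ext ?_)
    show (toFrame W).X x y (-1) = ((toFrame W).X x y 1)⁻¹
    rw [Frame.X_neg]
  · intro h
    exact up_ne_one one_ne_zero (hL.1 (h.trans (map_one _).symm))
  · rw [← map_pow, up_three h3K, map_one]

end General

section Types

variable {ι : Type} [Fintype ι] [DecidableEq ι] {F : Type} [Field F] [Fintype F] {Q : QuadraticForm F (ι → F)}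
  {m : ℕ}

/-- Type `C_{m+3}`. -/
theorem longHom_C (hG : Good Q) {p : ℕ} [Fact p.Prime] [CharP F p] (hp2 : Odd p)
    (W : WFrame (PO Q) (m + 3)) (hp0 : ∃ p : (toFrame W).Adm, p.c ≠ 0)
    (hxy : (((0 : Fin (m + 3)), true) : Fin (m + 3) × Bool).1 ≠ (((1 : Fin (m + 3)), true) : Fin (m + 3) × Bool).1) :
    LongHom (phiP W hG hxy) := by
  obtain ⟨p0, hp0⟩ := hp0
  have hA := amb W (two_ne hp2)
  have hW : Finite (CoxeterMatrix.B (m + 3)).Group := TypeC.finite_W (CoxeterMatrix.B (m + 3)).toCoxeterSystem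
  have hgen : E Q ≤ G1 (CoxeterMatrix.B (m + 3)).toCoxeterSystem (TypeC.isCartan (m + 3))
      (WittRoot.rg (toFrame W)) := by
    set K := G1 (CoxeterMatrix.B (m + 3)).toCoxeterSystem (TypeC.isCartan (m + 3))
      (WittRoot.rg (toFrame W)) with hK
    have key : ∀ a b : Fin (m + 3) × Bool, TypeC.Ok a b → PG (toFrame W) a b ≤ K := by
      intro a b hab
      obtain ⟨z, hz, ez⟩ := TypeC.rt_of_ok (cs := (CoxeterMatrix.B (m + 3)).toCoxeterSystem) hab
      rw [← WittRoot.rg_eq (toFrame W) hab ez]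
      exact X_le_G1 hz
    refine E_le_of_contains W (contains_C W 0 ?_ ?_ ⟨p0, hp0⟩)
    · intro i j hij t
      have hne : i ≠ j := fun h => by rw [h] at hij; omega
      constructor
      · refine key (i, true) (j, false) (Or.inl hne) ?_
        rw [WittRoot.PG_ne (toFrame W) (a := (i, true)) (b := (j, false)) hne]
        exact ⟨t, rfl⟩
      · refine key (j, true) (i, false) (Or.inl hne.symm) ?_
        rw [WittRoot.PG_ne (toFrame W) (a := (j, true)) (b := (i, false)) hne.symm]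
        exact ⟨t, rfl⟩
    · intro q
      constructor
      · refine key (0, true) (0, true) (Or.inr rfl) ?_
        rw [WittRoot.PG_self]
        exact ⟨q, rfl⟩
      · refine key (0, false) (0, false) (Or.inr rfl) ?_
        rw [WittRoot.PG_self]
        exact ⟨q, rfl⟩
  obtain ⟨a, ha, ea⟩ := TypeC.rt_of_ok (cs := (CoxeterMatrix.B (m + 3)).toCoxeterSystem)
    (a := ((0 : Fin (m + 3)), true)) (b := ((1 : Fin (m + 3)), true)) (Or.inl hxy)
  have ea' : TypeC.ee (-a) = TypeC.wt (TypeC.ng ((1 : Fin (m + 3)), true)) + TypeC.wt (TypeC.ng ((0 : Fin (m + 3)), true)) := by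
    rw [TypeC.ee_neg, ea, TypeC.wt_ng, TypeC.wt_ng]; abel
  refine longHom_of_frame W hG hp2 (odd_card hp2) hW (WittRGD.rgd hA hp2 hp0 (CoxeterMatrix.B (m + 3)).toCoxeterSystem)
    (fun x _ => hA.rg_le x) (fun i => WittRGD.nn_mem hA p0 i) hgen (x := ((0 : Fin (m + 3)), true))
    (y := ((1 : Fin (m + 3)), true)) (z := (⟨2, by omega⟩, true)) hxy ?_ ?_ ha ?_ ?_ (j_mem_Tor W hxy) ?_
  · simp [Fin.ext_iff]
  · simp [Fin.ext_iff]
  · rw [WittRoot.rg_eq (toFrame W) (Or.inl hxy) ea, PG_ne _ hxy]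
  · rw [WittRoot.rg_eq (toFrame W) (a := TypeC.ng ((1 : Fin (m + 3)), true))
      (b := TypeC.ng ((0 : Fin (m + 3)), true)) (Or.inl hxy.symm) ea', PG_ne _ (by simp)]
    rfl
  · intro r hr hra hra'
    obtain ⟨c, d, hcd, er⟩ := TypeC.exists_of_isRoot _ hr
    rw [WittRoot.rg_eq (toFrame W) hcd er]
    rcases hcd with hcd | rfl
    · rw [PG_ne _ hcd]
      refine dich_X W hxy hA hcd ?_ ?_ ?_ ?_
      · rintro ⟨rfl, rfl⟩
        exact hra (TypeC.ee_injective (er.trans ea.symm))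
      · rintro ⟨rfl, rfl⟩
        exact hra (TypeC.ee_injective (by rw [er, ea]; abel))
      · rintro ⟨rfl, rfl⟩
        exact hra' (TypeC.ee_injective (by rw [er, ea']; exact add_comm _ _))
      · rintro ⟨rfl, rfl⟩
        exact hra' (TypeC.ee_injective (by rw [er, ea']; rfl))
    · rw [PG_self]
      exact dich_Z W hxy hA c

/-- Type `D_{m+3}`. -/
theorem longHom_D (hG : Good Q) {p : ℕ} [Fact p.Prime] [CharP F p] (hp2 : Odd p)
    (W : WFrame (PO Q) (m + 1 + 2)) (h0 : ∀ p : (toFrame W).Adm, p = 1)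
    (hxy : (((0 : Fin (m + 1 + 2)), true) : Fin (m + 1 + 2) × Bool).1 ≠
      (((1 : Fin (m + 1 + 2)), true) : Fin (m + 1 + 2) × Bool).1) :
    LongHom (phiP W hG hxy) := by
  have hA := amb W (two_ne hp2)
  have hW : Finite (TypeD.M (m + 1)).Group := TypeD.finite_W (TypeD.M (m + 1)).toCoxeterSystem
  have hle : ∀ x, WittRGDD.rg (toFrame W) x ≤ E Q := fun x => iSup_le fun q => by
    rintro _ ⟨t, rfl⟩; exact hA.X_mem _ _ _
  have hgen : E Q ≤ G1 (TypeD.M (m + 1)).toCoxeterSystem (TypeD.isCartan (m + 1)) (WittRGDD.rg (toFrame W)) := by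
    set K := G1 (TypeD.M (m + 1)).toCoxeterSystem (TypeD.isCartan (m + 1)) (WittRGDD.rg (toFrame W)) with hK
    have key : ∀ a b : Fin (m + 1 + 2) × Bool, TypeD.Ok a b → ∀ t, (toFrame W).X a b t ∈ K := by
      intro a b hab t
      obtain ⟨z, hz, ez⟩ := TypeD.rt_of_ok (cs := (TypeD.M (m + 1)).toCoxeterSystem) hab
      have h1 : XG (toFrame W) a b ≤ K := by
        rw [← WittRGDD.rg_eq (toFrame W) hab ez]
        exact X_le_G1 hz
      exact h1 ⟨t, rfl⟩
    have hkl : (0 : Fin (m + 1 + 2)) ≠ 1 := by simp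
    refine E_le_of_contains W (contains_D W 0 1 hkl ?_ ?_ h0)
    · intro i j hij t
      have hne : i ≠ j := fun h => by rw [h] at hij; omega
      exact ⟨key (i, true) (j, false) hne t, key (j, true) (i, false) hne.symm t⟩
    · intro t
      exact ⟨key (0, true) (1, true) hkl t, key (0, false) (1, false) hkl t⟩
  obtain ⟨a, ha, ea⟩ := TypeD.rt_of_ok (cs := (TypeD.M (m + 1)).toCoxeterSystem)
    (a := ((0 : Fin (m + 1 + 2)), true)) (b := ((1 : Fin (m + 1 + 2)), true)) hxy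
  have ea' : TypeD.ee (-a) = TypeC.wt (TypeC.ng ((1 : Fin (m + 1 + 2)), true)) +
      TypeC.wt (TypeC.ng ((0 : Fin (m + 1 + 2)), true)) := by
    rw [TypeD.ee_neg, ea, TypeC.wt_ng, TypeC.wt_ng]; abel
  refine longHom_of_frame W hG hp2 (odd_card hp2) hW (WittRGDD.rgd hA hp2 h0 (TypeD.M (m + 1)).toCoxeterSystem)
    (fun x _ => hle x) (fun i => WittRGDD.nn_mem hA i) hgen (x := ((0 : Fin (m + 1 + 2)), true))
    (y := ((1 : Fin (m + 1 + 2)), true)) (z := (⟨2, by omega⟩, true)) hxy ?_ ?_ ha ?_ ?_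
    (j_mem_Tor W hxy) ?_
  · simp [Fin.ext_iff]
  · simp [Fin.ext_iff]
  · exact WittRGDD.rg_eq (toFrame W) hxy ea
  · rw [WittRGDD.rg_eq (toFrame W) (a := TypeC.ng ((1 : Fin (m + 1 + 2)), true))
      (b := TypeC.ng ((0 : Fin (m + 1 + 2)), true)) hxy.symm ea']
    rfl
  · intro r hr hra hra'
    obtain ⟨c, d, hcd, er⟩ := TypeD.exists_of_isRoot _ hr
    rw [WittRGDD.rg_eq (toFrame W) hcd er]
    refine dich_X W hxy hA hcd ?_ ?_ ?_ ?_
    · rintro ⟨rfl, rfl⟩
      exact hra (TypeD.ee_injective (er.trans ea.symm))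
    · rintro ⟨rfl, rfl⟩
      exact hra (TypeD.ee_injective (by rw [er, ea]; abel))
    · rintro ⟨rfl, rfl⟩
      exact hra' (TypeD.ee_injective (by rw [er, ea']; exact add_comm _ _))
    · rintro ⟨rfl, rfl⟩
      exact hra' (TypeD.ee_injective (by rw [er, ea']; rfl))

end Types

section Main

variable (F : Type) [Field F] [Fintype F] {p : ℕ} [CharP F p]

theorem odd_false (hc : Fintype.card F = 3) (hp2 : Odd p) {m : ℕ} (hm : 3 ≤ m)
    {Dd : Set (Cfsg.POmega F (Cfsg.quadFormOdd m F))} (Fu : Full Dd) : False := by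
  have : Fact p.Prime := ⟨CharP.char_is_prime F p⟩
  revert Dd
  rw [← coe_oddForm]
  intro Dd Fu
  have hG : Good (oddForm m F) := by
    apply good_of_finite (nondeg_oddForm m F (two_ne hp2))
    rw [Module.finrank_fintype_fun_eq_card, Fintype.card_sum, Fintype.card_sum, Fintype.card_fin,
      Fintype.card_unit]
    omega
  obtain ⟨m, rfl⟩ : ∃ k, m = k + 3 := ⟨m - 3, by omega⟩
  have hxy : (((0 : Fin (m + 3)), true) : Fin (m + 3) × Bool).1 ≠ (((1 : Fin (m + 3)), true) : Fin (m + 3) × Bool).1 := by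
    simp
  have hL := longHom_C hG hp2 (wodd (m + 3) F) (by
    refine ⟨(embOdd (m + 3) F).ngt ⟨1, -1 ^ 2, rfl⟩, ?_⟩
    change (1 : F)⁻¹ * (-1 ^ 2) ≠ 0
    simp) hxy
  refine orth_false (wodd (m + 3) F) hG (amb _ (two_ne hp2)) hc (z := (⟨2, by omega⟩, true)) hxy ?_ ?_ hL Fu
  · simp [Fin.ext_iff]
  · simp [Fin.ext_iff]

theorem minus_false (hc : Fintype.card F = 3) (hp2 : Odd p) (a b : F)
    (hab : ∀ z₁ z₂ : F, z₁ ^ 2 + a * z₁ * z₂ + b * z₂ ^ 2 = 0 → z₁ = 0 ∧ z₂ = 0) {m : ℕ} (hm : 3 ≤ m)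
    {Dd : Set (Cfsg.POmega F (Cfsg.quadFormMinus m F a b))} (Fu : Full Dd) : False := by
  have : Fact p.Prime := ⟨CharP.char_is_prime F p⟩
  revert Dd
  rw [← coe_minusForm]
  intro Dd Fu
  have hG : Good (minusForm m F a b) := by
    apply good_of_finite (nondeg_minusForm m F a b hab)
    rw [Module.finrank_fintype_fun_eq_card, Fintype.card_sum, Fintype.card_sum, Fintype.card_fin,
      Fintype.card_fin]
    omega
  obtain ⟨m, rfl⟩ : ∃ k, m = k + 3 := ⟨m - 3, by omega⟩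
  have hxy : (((0 : Fin (m + 3)), true) : Fin (m + 3) × Bool).1 ≠ (((1 : Fin (m + 3)), true) : Fin (m + 3) × Bool).1 := by
    simp
  have hL := longHom_C hG hp2 (wminus (m + 3) F a b hab) (by
    refine ⟨(embMinus (m + 3) F a b hab).ngt ⟨(1, 0), -StdData.nf a b (1, 0), rfl⟩, ?_⟩
    change (1 : F)⁻¹ * (-StdData.nf a b (1, 0)) ≠ 0
    simp [StdData.nf]) hxy
  refine orth_false (wminus (m + 3) F a b hab) hG (amb _ (two_ne hp2)) hc (z := (⟨2, by omega⟩, true)) hxy ?_ ?_ hL Fu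
  · simp [Fin.ext_iff]
  · simp [Fin.ext_iff]

theorem plus_false (hc : Fintype.card F = 3) (hp2 : Odd p) {m : ℕ} (hm : 3 ≤ m)
    {Dd : Set (Cfsg.POmega F (Cfsg.quadFormPlus m F))} (Fu : Full Dd) : False := by
  have : Fact p.Prime := ⟨CharP.char_is_prime F p⟩
  revert Dd
  rw [← coe_plusForm]
  intro Dd Fu
  have hG : Good (plusForm m F) := by
    apply good_of_finite (nondeg_plusForm m F)
    rw [Module.finrank_fintype_fun_eq_card, Fintype.card_sum, Fintype.card_fin]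
    omega
  obtain ⟨m, rfl⟩ : ∃ k, m = k + 1 + 2 := ⟨m - 3, by omega⟩
  have hxy : (((0 : Fin (m + 1 + 2)), true) : Fin (m + 1 + 2) × Bool).1 ≠
      (((1 : Fin (m + 1 + 2)), true) : Fin (m + 1 + 2) × Bool).1 := by
    simp
  have hL := longHom_D hG hp2 (wplus (m + 1 + 2) F) (wplus_adm _ F) hxy
  refine orth_false (wplus (m + 1 + 2) F) hG (amb _ (two_ne hp2)) hc (z := (⟨2, by omega⟩, true)) hxy ?_ ?_ hL Fu
  · simp [Fin.ext_iff]
  · simp [Fin.ext_iff]

end Main

theorem charP_three {F : Type} [Field F] [Fintype F] (hc : Fintype.card F = 3) : CharP F 3 := by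
  obtain ⟨p, hp⟩ := CharP.exists F
  have hpp : p.Prime := (CharP.char_is_prime_or_zero F p).resolve_right (CharP.char_ne_zero_of_finite F p)
  have h1 : p ∣ 3 := by
    rw [← hc]
    exact (CharP.cast_eq_zero_iff F p _).1 (Nat.cast_card_eq_zero F)
  have h2 := (Nat.prime_dvd_prime_iff_eq hpp Nat.prime_three).1 h1
  rwa [h2] at hp

/-- the orthogonal groups over the field with three elements -/
theorem Full.not_orth {X : Type*} [Group X] {D : Set X} (F : Full D)
    (h : OddHalf.LieOddFam.FOdd X 3 ∨ OddHalf.LieOddFam.FPlus X 3 ∨ OddHalf.LieOddFam.FMinus X 3) : False := by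
  rcases h with ⟨K, i1, i2, m, hK, hm, ⟨e⟩⟩ | ⟨K, i1, i2, m, hK, hm, ⟨e⟩⟩ | ⟨K, i1, i2, m, b, c, hK, hm, hbc, ⟨e⟩⟩
  · have := charP_three hK
    exact odd_false K hK (p := 3) (by decide) hm (F.map_equiv e)
  · have := charP_three hK
    exact plus_false K hK (p := 3) (by decide) (by omega) (F.map_equiv e)
  · have := charP_three hK
    exact minus_false K hK (p := 3) (by decide) b c hbc (by omega) (F.map_equiv e)

end Cfsg.Agent.H204.RI
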