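import Cfsg.Agent.H204.RI.Rgd

/-!
# Root group data of type `B₂` and characteristic two (helper204, for S3126)

* `Full.no_quad` : `G ≠ N ∪ N s N ∪ N s N s N`, `N = N(W(z))`, if `s z s⁻¹` commutes with `z`;
* `Full.not_quad` : no root group datum of type `B₂` such that one of the two `n k` normalises `W(z)`.
-/

set_option autoImplicit false
set_option linter.unusedSectionVars false

namespace Cfsg.Agent.H204.RI

open CoxeterSystem Cfsg.Agent.ChevalleyStructure.CoxeterGeom Cfsg.Agent.Tits.Roots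
  Cfsg.Agent.Nodes.Reps Cfsg.Agent.Nodes.BNOf
  Cfsg.Agent.Nodes.Bruhat Cfsg.Agent.Nodes.OppDec Cfsg.Agent.Nodes.LeviDec Cfsg.Agent.Nodes.NormX
  Cfsg.Agent.KFacts.RgdPar Cfsg.Agent.KFacts.RgdCent
  Cfsg.Agent.KFacts.RgdEx Cfsg.Agent.KFacts.RgdVJ Cfsg.Agent.KFacts.RgdCharP
  Cfsg.Agent.KFacts.RgdBorelTits Cfsg.Agent.KFacts.RgdFilt Cfsg.Agent.KFacts.RgdLieCharP
open Subgroup

variable {G : Type*} [Group G] {D : Set G}

/-- `N ∪ N s N ∪ N s N s N` -/
def Ball (N : Subgroup G) (s : G) (g : G) : Prop :=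
  g ∈ N ∨ (∃ x ∈ N, ∃ y ∈ N, g = x * s * y) ∨ ∃ x ∈ N, ∃ y ∈ N, ∃ w ∈ N, g = x * s * y * s * w

theorem Ball.mul_left {N : Subgroup G} {s g b : G} (h : Ball N s g) (hb : b ∈ N) : Ball N s (b * g) := by
  rcases h with h | ⟨x, hx, y, hy, rfl⟩ | ⟨x, hx, y, hy, w, hw, rfl⟩
  · exact Or.inl (mul_mem hb h)
  · exact Or.inr (Or.inl ⟨b * x, mul_mem hb hx, y, hy, by group⟩)
  · exact Or.inr (Or.inr ⟨b * x, mul_mem hb hx, y, hy, w, hw, by group⟩)

theorem Ball.mul_right {N : Subgroup G} {s g b : G} (h : Ball N s g) (hb : b ∈ N) : Ball N s (g * b) := by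
  rcases h with h | ⟨x, hx, y, hy, rfl⟩ | ⟨x, hx, y, hy, w, hw, rfl⟩
  · exact Or.inl (mul_mem h hb)
  · exact Or.inr (Or.inl ⟨x, hx, y * b, mul_mem hy hb, by group⟩)
  · exact Or.inr (Or.inr ⟨x, hx, y, hy, w * b, mul_mem hw hb, by group⟩)

theorem WC.mem_normalizer_Wc (h : WC D) {z g : G} :
    g ∈ normalizer (Wc D z : Set G) ↔ Wc D (g * z * g⁻¹) = Wc D z := by
  rw [h.Wc_conj, mem_normalizer_iff]
  constructor
  · intro hg
    ext x
    constructor
    · rintro ⟨y, hy, rfl⟩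
      exact (hg y).1 hy
    · intro hx
      refine ⟨g⁻¹ * x * g, (hg _).2 ?_, ?_⟩
      · have e : g * (g⁻¹ * x * g) * g⁻¹ = x := by group
        rw [e]; exact hx
      · show g * (g⁻¹ * x * g) * g⁻¹ = x
        group
  · intro hg x
    constructor
    · intro hx
      rw [← hg]
      exact ⟨x, hx, rfl⟩
    · intro hx
      have hx' : g * x * g⁻¹ ∈ (Wc D z).map (MulAut.conj g).toMonoidHom := by rw [hg]; exact hx
      obtain ⟨y, hy, hyx⟩ := hx'
      have hyx' : g * y * g⁻¹ = g * x * g⁻¹ := hyx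
      rw [← mul_left_cancel (mul_right_cancel hyx')]
      exact hy

namespace Full

variable (F : Full D)
include F

/-- members of `D` with the same `W` as commuting members commute -/
theorem comm_of_Wc {y a y' a' : G} (ha : a ∈ D) (hya : y * a = a * y) (hy' : y' ∈ D)
    (h1 : Wc D y' = Wc D y) (h2 : Wc D a' = Wc D a) : y' * a' = a' * y' := by
  have h3 : a ∈ Wc D y' := by rw [h1]; exact mem_Wc ha hya.symm
  have h4 : y' ∈ Wc D a' := by
    rw [h2]
    exact mem_Wc hy' (Wc_comm h3).eq.symm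
  exact (Wc_comm h4).eq

/-- **the quadrangle** -/
theorem no_quad [Finite G] [IsSimpleGroup G] {z s : G} (hz : z ∈ D) (hs : s * z * s⁻¹ * z = z * (s * z * s⁻¹))
    (hall : ∀ g, Ball (normalizer (Wc D z : Set G)) s g) : False := by
  have hN : ∀ {g : G}, g ∈ normalizer (Wc D z : Set G) → Wc D (g * z * g⁻¹) = Wc D z := fun hg =>
    F.toWC.mem_normalizer_Wc.1 hg
  have hsD : s * z * s⁻¹ ∈ D := F.conj z hz s
  have hcc : ∀ (p : G) {u v : G}, u * v = v * u → p * u * p⁻¹ * (p * v * p⁻¹) = p * v * p⁻¹ * (p * u * p⁻¹) := by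
    intro p u v huv
    calc p * u * p⁻¹ * (p * v * p⁻¹) = p * (u * v) * p⁻¹ := by group
      _ = p * (v * u) * p⁻¹ := by rw [huv]
      _ = _ := by group
  -- conjugates by `N s N`
  have hstep : ∀ x ∈ normalizer (Wc D z : Set G), ∀ y ∈ normalizer (Wc D z : Set G),
      z * (x * s * y * z * (x * s * y)⁻¹) = x * s * y * z * (x * s * y)⁻¹ * z := by
    intro x hx y hy
    have h1 : x⁻¹ * z * x * (s * (y * z * y⁻¹) * s⁻¹) = s * (y * z * y⁻¹) * s⁻¹ * (x⁻¹ * z * x) := by
      refine F.comm_of_Wc hsD hs.symm (F.toWC.conj' hz x) ?_ ?_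
      · have := hN (inv_mem hx)
        rwa [inv_inv] at this
      · rw [F.toWC.Wc_conj s (y * z * y⁻¹), hN hy, ← F.toWC.Wc_conj]
    have h2 := hcc x h1
    have e1 : x * (x⁻¹ * z * x) * x⁻¹ = z := by group
    have e2 : x * (s * (y * z * y⁻¹) * s⁻¹) * x⁻¹ = x * s * y * z * (x * s * y)⁻¹ := by group
    rwa [e1, e2] at h2
  have key : ∀ g, ∃ b ∈ D, z * b = b * z ∧ g * z * g⁻¹ * b = b * (g * z * g⁻¹) := by
    intro g
    rcases hall g with h | ⟨x, hx, y, hy, rfl⟩ | ⟨x, hx, y, hy, w, hw, rfl⟩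
    · refine ⟨z, hz, rfl, ?_⟩
      exact (F.comm_of_Wc hz rfl hz rfl (hN h)).symm
    · exact ⟨z, hz, rfl, (hstep x hx y hy).symm⟩
    · refine ⟨x * s * z * (x * s)⁻¹, F.conj z hz _, ?_, ?_⟩
      · have := hstep x hx 1 (one_mem _)
        rwa [mul_one] at this
      · have h1 := hcc (x * s) (hstep y hy w hw)
        have e1 : x * s * (y * s * w * z * (y * s * w)⁻¹) * (x * s)⁻¹ =
          x * s * y * s * w * z * (x * s * y * s * w)⁻¹ := by group
        rw [e1] at h1
        exact h1.symm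
  refine F.no_diam_two fun y hy a ha => ?_
  obtain ⟨g, rfl⟩ := F.cls z hz y hy
  obtain ⟨g', rfl⟩ := F.cls z hz a ha
  obtain ⟨b, hb, h1, h2⟩ := key (g⁻¹ * g')
  refine ⟨g * b * g⁻¹, F.conj b hb g, hcc g h1, ?_⟩
  have h3 := hcc g h2
  have e : g * (g⁻¹ * g' * z * (g⁻¹ * g')⁻¹) * g⁻¹ = g' * z * g'⁻¹ := by group
  rwa [e] at h3

/-- **type `B₂`** -/
theorem not_quad [Finite G] [IsSimpleGroup G] {A : Fin 2 → Fin 2 → ℤ} {h : IsCartan (CoxeterMatrix.B 2) A}
    {T : Subgroup G} {n : Fin 2 → G} {X : (Fin 2 → ℤ) → Subgroup G} (hW : Finite (CoxeterMatrix.B 2).Group)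
    (R : RGD (CoxeterMatrix.B 2).toCoxeterSystem h 2 T n X)
    (hX : Nodes.RGDLib.G1 (CoxeterMatrix.B 2).toCoxeterSystem h X = ⊤) {z : G} (hz : z ∈ D)
    (hzc : ∀ u ∈ RGD.Sup X (RGD.Pos (CoxeterMatrix.B 2).toCoxeterSystem h), u * z = z * u)
    {k : Fin 2} (hk : n k ∈ normalizer (Wc D z : Set G)) : False := by
  have hfact : Fact (Nat.Prime 2) := ⟨Nat.prime_two⟩
  set cs := (CoxeterMatrix.B 2).toCoxeterSystem with hcs
  have hGG : GG cs h T X = ⊤ := GG_eq_top hX
  obtain ⟨-, hrad⟩ := F.exists_rad hW R hX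
  obtain ⟨i, hi⟩ : ∃ i : Fin 2, i ≠ k := ⟨k + 1, by fin_cases k <;> decide⟩
  set U := RGD.Sup X (RGD.Pos cs h) with hU
  have hUN : U ≤ normalizer (Wc D z : Set G) := by
    intro u hu
    rw [mem_normalizer_iff]
    intro x
    refine ⟨fun hx => F.toWC.conj_Wc (hzc u hu) hx, fun hx => ?_⟩
    have h1 := F.toWC.conj_Wc (hzc _ (inv_mem hu)) hx
    have e : u⁻¹ * (u * x * u⁻¹) * u⁻¹⁻¹ = x := by group
    rwa [e] at h1
  -- `W(z) ≤ U`
  have hWU : Wc D z ≤ U := by
    obtain ⟨S, hS⟩ := KFacts.RgdAutFacts.exists_sylow R hGG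
    have h1 : IsPGroup 2 (Wc D z ⊔ U : Subgroup G) := by
      have h2 : IsPGroup 2 U := by rw [hU, ← hS]; exact S.isPGroup'
      rw [sup_comm]
      exact h2.to_sup_of_normal_right' (F.two z hz) hUN
    have h3 : Wc D z ⊔ U = U := by
      have h4 := S.is_maximal' h1 (by rw [hS]; exact le_sup_right)
      rw [h4, hS]
    rw [← h3]; exact le_sup_left
  have hTN : T ≤ normalizer (Wc D z : Set G) := by
    have hTU : ∀ t ∈ T, ∀ u ∈ U, t * u * t⁻¹ ∈ U := by
      intro t ht u hu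
      refine conj_mem_Sup (S := RGD.Pos cs h) (S' := RGD.Pos cs h) R (rp_of_mem ht)
        (fun x hx => hx.1) (fun x hx => ?_) hu
      rw [map_one, Module.End.one_apply]; exact hx
    intro t ht
    rw [mem_normalizer_iff]
    intro x
    refine ⟨fun hx => F.toWC.conj_Wc_of_norm hWU hzc (hTU t ht) hx, fun hx => ?_⟩
    have h1 := F.toWC.conj_Wc_of_norm hWU hzc (hTU _ (inv_mem ht)) hx
    have e : t⁻¹ * (t * x * t⁻¹) * t⁻¹⁻¹ = x := by group
    rwa [e] at h1
  have hBN : RGD.B cs h T X ≤ normalizer (Wc D z : Set G) := sup_le hTN hUN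
  set N := normalizer (Wc D z : Set G) with hNdef
  have hsz : n i * z * (n i)⁻¹ * z = z * (n i * z * (n i)⁻¹) := by
    have hJ : ({i} : Set (Fin 2)) ≠ Set.univ := by
      intro hcon
      exact hi ((hcon ▸ Set.mem_univ k : k ∈ ({i} : Set (Fin 2)))).symm
    have h1 := (mem_normalizer_iff.1 ((LJ_le_PJ (T := T) (J := {i}) (X := X) (cs := cs) (h := h)).trans
      (PJ_le_normalizer_VJ R {i}) (n_mem_LJ R (Set.mem_singleton i))) z).1 (hrad z hzc {i} hJ)
    exact hzc _ (VJ_le_U _ h1)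
  refine F.no_quad hz hsz fun g => ?_
  -- the Weyl group
  set a := cs.simple k with ha
  set b := cs.simple i with hb
  have haa : a * a = 1 := cs.simple_mul_simple_self k
  have hbb : b * b = 1 := cs.simple_mul_simple_self i
  have hM : (CoxeterMatrix.B 2) k i = 4 := by
    fin_cases k <;> fin_cases i <;> first | rfl | exact absurd rfl hi
  have hab : a * b * a * b = b * a * b * a := by
    have h1 : (a * b) ^ 4 = 1 := by
      have := cs.simple_mul_simple_pow k i
      rwa [hM] at this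
    have h2 : a * b * a * b * (a * b * a * b) = 1 := by
      rw [← h1]; simp only [pow_succ, pow_zero, one_mul, mul_assoc]
    have h3 : b * a * b * a * (a * b * a * b) = 1 := by
      calc b * a * b * a * (a * b * a * b) = b * a * b * (a * a) * b * a * b := by group
        _ = b * a * (b * b) * a * b := by rw [haa]; group
        _ = b * (a * a) * b := by rw [hbb]; group
        _ = b * b := by rw [haa]; group
        _ = 1 := hbb
    rw [eq_inv_of_mul_eq_one_left h2, eq_inv_of_mul_eq_one_left h3]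
  have hlist : ∀ w : (CoxeterMatrix.B 2).Group, w = 1 ∨ w = a ∨ w = b ∨ w = a * b ∨ w = b * a ∨ w = a * b * a ∨
      w = b * a * b ∨ w = a * b * a * b := by
    intro w
    induction w using cs.simple_induction_left with
    | one => exact Or.inl rfl
    | mul_simple_left w j ih =>
      have hj : j = k ∨ j = i := by
        have := hi
        omega
      rcases hj with rfl | rfl
      · change a * w = 1 ∨ a * w = a ∨ _
        rcases ih with rfl | rfl | rfl | rfl | rfl | rfl | rfl | rfl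
        · exact Or.inr (Or.inl (mul_one a))
        · exact Or.inl haa
        · exact Or.inr (Or.inr (Or.inr (Or.inl rfl)))
        · exact Or.inr (Or.inr (Or.inl (by rw [← mul_assoc, haa, one_mul])))
        · exact Or.inr (Or.inr (Or.inr (Or.inr (Or.inr (Or.inl (by rw [← mul_assoc]))))))
        · exact Or.inr (Or.inr (Or.inr (Or.inr (Or.inl (by rw [← mul_assoc, ← mul_assoc, haa, one_mul])))))
        · exact Or.inr (Or.inr (Or.inr (Or.inr (Or.inr (Or.inr (Or.inr (by rw [← mul_assoc, ← mul_assoc])))))))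
        · exact Or.inr (Or.inr (Or.inr (Or.inr (Or.inr (Or.inr (Or.inl (by
            rw [← mul_assoc, ← mul_assoc, ← mul_assoc, haa, one_mul])))))))
      · change b * w = 1 ∨ b * w = a ∨ _
        rcases ih with rfl | rfl | rfl | rfl | rfl | rfl | rfl | rfl
        · exact Or.inr (Or.inr (Or.inl (mul_one b)))
        · exact Or.inr (Or.inr (Or.inr (Or.inr (Or.inl rfl))))
        · exact Or.inl hbb
        · exact Or.inr (Or.inr (Or.inr (Or.inr (Or.inr (Or.inr (Or.inl (by rw [← mul_assoc])))))))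
        · exact Or.inr (Or.inl (by rw [← mul_assoc, hbb, one_mul]))
        · exact Or.inr (Or.inr (Or.inr (Or.inr (Or.inr (Or.inr (Or.inr (by
            rw [hab, ← mul_assoc, ← mul_assoc])))))))
        · exact Or.inr (Or.inr (Or.inr (Or.inl (by rw [← mul_assoc, ← mul_assoc, hbb, one_mul]))))
        · exact Or.inr (Or.inr (Or.inr (Or.inr (Or.inr (Or.inl (by
            rw [hab, ← mul_assoc, ← mul_assoc, ← mul_assoc, hbb, one_mul]))))))
  have hpa := rp_simple cs R.nsys k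
  have hpb := rp_simple cs R.nsys i
  obtain ⟨w, b₁, hb₁, g', hg', b₂, hb₂, rfl⟩ := (mem_GG R).1 (by rw [hGG]; exact mem_top g)
  refine ((?_ : Ball N (n i) g').mul_left (hBN hb₁)).mul_right (hBN hb₂)
  have hfin : ∀ {k' : G}, Rp cs R.nsys w k' → Ball N (n i) k' → Ball N (n i) g' := by
    intro k' h1 h2
    have h3 := h2.mul_right (hTN (h1.unique hg'))
    rwa [mul_inv_cancel_left] at h3
  rcases hlist w with rfl | rfl | rfl | rfl | rfl | rfl | rfl | rfl
  · exact hfin rp_one (Or.inl (one_mem _))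
  · exact hfin hpa (Or.inl hk)
  · exact hfin hpb (Or.inr (Or.inl ⟨1, one_mem _, 1, one_mem _, by group⟩))
  · exact hfin (hpa.mul hpb) (Or.inr (Or.inl ⟨n k, hk, 1, one_mem _, by group⟩))
  · exact hfin (hpb.mul hpa) (Or.inr (Or.inl ⟨1, one_mem _, n k, hk, by group⟩))
  · exact hfin ((hpa.mul hpb).mul hpa) (Or.inr (Or.inl ⟨n k, hk, n k, hk, by group⟩))
  · exact hfin ((hpb.mul hpa).mul hpb) (Or.inr (Or.inr ⟨1, one_mem _, n k, hk, 1, one_mem _, by group⟩))
  · exact hfin (((hpa.mul hpb).mul hpa).mul hpb) (Or.inr (Or.inr ⟨n k, hk, n k, hk, 1, one_mem _, by group⟩))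

end Full

end Cfsg.Agent.H204.RI
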