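import Cfsg.Agent.H204.RI.Geo
import Cfsg.Agent.KFacts.RgdLieCharP

/-!
# Root group data of characteristic two (helper204, for S3126)

* `HasTy p G M` : `G` has a root group datum of characteristic `p` with Coxeter matrix `M`;
* `Full.not_rank_three` : not with at least three nodes;
* `Full.not_quad` : not with two nodes, `M = B₂`, if `C(z)` is not contained in the Borel subgroup.
-/

set_option autoImplicit false
set_option linter.unusedSectionVars false

namespace Cfsg.Agent.H204.RI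

open CoxeterSystem Cfsg.Agent.ChevalleyStructure.CoxeterGeom Cfsg.Agent.Tits.Roots
  Cfsg.Agent.Nodes.Reps Cfsg.Agent.Nodes.BNOf
  Cfsg.Agent.Nodes.Bruhat Cfsg.Agent.Nodes.OppDec Cfsg.Agent.Nodes.LeviDec Cfsg.Agent.Nodes.NormX
  Cfsg.Agent.KFacts.RgdPar Cfsg.Agent.KFacts.RgdCent
  Cfsg.Agent.KFacts.RgdEx Cfsg.Agent.KFacts.RgdVJ Cfsg.Agent.KFacts.RgdCharP
  Cfsg.Agent.KFacts.RgdBorelTits Cfsg.Agent.KFacts.RgdFilt Cfsg.Agent.KFacts.RgdLieCharP
open Subgroup

/-- a root group datum with given Coxeter matrix -/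
def HasTy (p : ℕ) (G : Type*) [Group G] {l : ℕ} (M : CoxeterMatrix (Fin l)) : Prop :=
  ∃ (A : Fin l → Fin l → ℤ) (h : IsCartan M A) (T : Subgroup G) (n : Fin l → G)
    (X : (Fin l → ℤ) → Subgroup G), Finite M.Group ∧ RGD M.toCoxeterSystem h p T n X ∧
      Nodes.RGDLib.G1 M.toCoxeterSystem h X = ⊤

theorem HasTy.of_equiv {p : ℕ} {G H : Type*} [Group G] [Group H] {l : ℕ} {M : CoxeterMatrix (Fin l)} (e : G ≃* H)
    (hG : HasTy p G M) : HasTy p H M := by
  obtain ⟨A, h, T, n, X, hW, R, hX⟩ := hG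
  refine ⟨A, h, T.map e.toMonoidHom, fun i => e (n i), fun x => (X x).map e.toMonoidHom, hW,
    Nodes.RGDLib.rgd_map_of_injective R e.toMonoidHom e.injective, ?_⟩
  have h1 : (Nodes.RGDLib.G1 M.toCoxeterSystem h X).map e.toMonoidHom =
      Nodes.RGDLib.G1 M.toCoxeterSystem h (fun x => (X x).map e.toMonoidHom) := by
    unfold Nodes.RGDLib.G1 RGD.Sup
    rw [Subgroup.map_iSup]
  rw [← h1, hX, Subgroup.map_top_of_surjective _ e.surjective]

variable {G : Type*} [Group G] {D : Set G}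

namespace Full

variable (F : Full D)
include F

/-- a member of `D` central in `U` lies in the centre of the unipotent radicals -/
theorem exists_rad [Finite G] [IsSimpleGroup G] {l : ℕ} {M : CoxeterMatrix (Fin l)} {A : Fin l → Fin l → ℤ}
    {h : IsCartan M A} {T : Subgroup G} {n : Fin l → G} {X : (Fin l → ℤ) → Subgroup G} (hW : Finite M.Group)
    (R : RGD M.toCoxeterSystem h 2 T n X) (hX : Nodes.RGDLib.G1 M.toCoxeterSystem h X = ⊤) :
    (∃ z ∈ D, z ∈ RGD.Sup X (RGD.Pos M.toCoxeterSystem h) ∧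
      ∀ u ∈ RGD.Sup X (RGD.Pos M.toCoxeterSystem h), u * z = z * u) ∧
    ∀ z : G, (∀ u ∈ RGD.Sup X (RGD.Pos M.toCoxeterSystem h), u * z = z * u) → ∀ J : Set (Fin l), J ≠ Set.univ →
      z ∈ VJ M.toCoxeterSystem h X J := by
  have hfact : Fact (Nat.Prime 2) := ⟨Nat.prime_two⟩
  have hGG : GG M.toCoxeterSystem h T X = ⊤ := GG_eq_top hX
  have hconn := conn_of_simple R hX F.cen
  have hN := noCent_of_center hX (T := T) F.cen
  obtain ⟨S, hS⟩ := KFacts.RgdAutFacts.exists_sylow R hGG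
  refine ⟨?_, ?_⟩
  · obtain ⟨z, hz, hzS, hzc⟩ := F.syl S
    have hmem : ∀ u, u ∈ RGD.Sup X (RGD.Pos M.toCoxeterSystem h) ↔ u ∈ S := by
      intro u
      rw [← hS]
      exact Iff.rfl
    exact ⟨z, hz, (hmem z).2 hzS, fun u hu => hzc u ((hmem u).1 hu)⟩
  · intro z hz J hJ
    refine cent_VJ_le R hN hconn hJ (mem_inf.2 ⟨mem_centralizer_iff.2 fun v hv => hz v (VJ_le_U J hv), ?_⟩)
    rw [hGG]; exact mem_top z

/-- **rank at least three** -/
theorem not_rank_three [Finite G] [IsSimpleGroup G] {l : ℕ} {M : CoxeterMatrix (Fin l)} (hG : HasTy 2 G M)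
    (hl : 3 ≤ l) : False := by
  obtain ⟨A, h, T, n, X, hW, R, hX⟩ := hG
  have hfact : Fact (Nat.Prime 2) := ⟨Nat.prime_two⟩
  have hGG : GG M.toCoxeterSystem h T X = ⊤ := GG_eq_top hX
  obtain ⟨⟨z, hz, hzU, hzc⟩, hrad⟩ := F.exists_rad hW R hX
  refine F.no_rank_three hz (fun k : Fin l => PJ M.toCoxeterSystem h T X {k}) ?_ ?_
  · refine KFacts.RgdAutFacts.GG_le R hGG ?_ ?_
    · exact le_trans (B_le_PJ (J := {(⟨0, by omega⟩ : Fin l)}))
        (le_iSup (fun k : Fin l => PJ M.toCoxeterSystem h T X {k}) ⟨0, by omega⟩)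
    · intro i
      exact le_iSup (fun k : Fin l => PJ M.toCoxeterSystem h T X {k}) i
        (LJ_le_PJ (n_mem_LJ R (Set.mem_singleton i)))
  · intro i k
    set J : Set (Fin l) := {i, k} with hJ
    have hJu : J ≠ Set.univ := by
      intro hcon
      have h1 : Set.ncard J ≤ 2 := by
        have h2 := Set.ncard_insert_le i {k}
        rwa [Set.ncard_singleton] at h2
      rw [hcon, Set.ncard_univ, Nat.card_eq_fintype_card, Fintype.card_fin] at h1
      omega
    set V := VJ M.toCoxeterSystem h X J with hV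
    have hPn : ∀ {J' : Set (Fin l)}, J' ⊆ J → PJ M.toCoxeterSystem h T X J' ≤ normalizer (V : Set G) := by
      intro J' hJ'
      refine sup_le ?_ ?_
      · exact ((LJ_mono hJ').trans LJ_le_PJ).trans (PJ_le_normalizer_VJ R J)
      · refine (VJ_le_B J').trans (B_le_PJ.trans (PJ_le_normalizer_VJ R J))
    have hnorm : ∀ {g : G}, g ∈ normalizer (V : Set G) → ∀ x ∈ V ⊓ centralizer (V : Set G),
        g * x * g⁻¹ ∈ V ⊓ centralizer (V : Set G) := by
      rintro g hg x ⟨hx, hxc⟩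
      refine ⟨(mem_normalizer_iff.1 hg x).1 hx, ?_⟩
      have hxc' := mem_centralizer_iff.1 hxc
      refine mem_centralizer_iff.2 fun v hv => ?_
      have hv' : g⁻¹ * v * g ∈ V := by
        refine (mem_normalizer_iff.1 hg _).2 ?_
        have e : g * (g⁻¹ * v * g) * g⁻¹ = v := by group
        rw [e]; exact hv
      have h3 := hxc' _ hv'
      calc v * (g * x * g⁻¹) = g * ((g⁻¹ * v * g) * x) * g⁻¹ := by group
        _ = g * (x * (g⁻¹ * v * g)) * g⁻¹ := by rw [h3]
        _ = _ := by group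
    have hle : normalizer (V : Set G) ≤ normalizer ((V ⊓ centralizer (V : Set G) : Subgroup G) : Set G) := by
      intro g hg
      rw [mem_normalizer_iff]
      intro x
      refine ⟨hnorm hg x, fun hx => ?_⟩
      have h1 := hnorm (inv_mem hg) _ hx
      have e : g⁻¹ * (g * x * g⁻¹) * g⁻¹⁻¹ = x := by group
      rwa [e] at h1
    refine ⟨V ⊓ centralizer (V : Set G), ⟨hrad z hzc J hJu, ?_⟩, ?_, ?_, ?_⟩
    · refine mem_centralizer_iff.2 fun v hv => hzc v (VJ_le_U J hv)
    · rintro x ⟨hx, -⟩ y ⟨-, hy⟩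
      exact mem_centralizer_iff.1 hy x hx
    · exact (hPn (by intro x hx; rw [Set.mem_singleton_iff.1 hx]; exact Set.mem_insert _ _)).trans hle
    · exact (hPn (by intro x hx; rw [Set.mem_singleton_iff.1 hx]; exact Set.mem_insert_of_mem _ rfl)).trans hle

end Full

end Cfsg.Agent.H204.RI
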