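import Cfsg.Agent.H204.RI.CharTwo
import Cfsg.Agent.H204.RI.Trans
import Cfsg.Agent.OddHalf.D8.Plug

/-!
# Sporadic groups with an extraspecial centralizer core (helper204, for S3126)

`SheetE z P R` has an element `k` with `k z k⁻¹ ∈ P - R`; but `D ∩ C(z) ⊆ O₂(C(z))`.
-/

set_option autoImplicit false
set_option linter.unusedSectionVars false

namespace Cfsg.Agent.H204.RI

open Subgroup Cfsg Cfsg.Agent.OddHalf.D8 Cfsg.Agent.OddHalf.D8.Sheet

theorem Full.not_sheetE {G : Type*} [Group G] [Finite G] {D : Set G} (F : Full D)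
    (h : ∃ (z : G) (P R : Subgroup G), SheetE z P R) : False := by
  obtain ⟨z, P, R, h⟩ := h
  obtain ⟨S, hzS, -, hS⟩ := h.syl
  obtain ⟨d, hd, hdS, hdc⟩ := F.syl S
  have hz : z ∈ D := by
    rcases hS d hdS fun x hx => hdc x hx with h1 | h1
    · exact absurd h1 (F.toWC.ne_one hd)
    · rwa [← h1]
  obtain ⟨k, hk1, hk2, -⟩ := h.ytrick
  apply hk2
  have h1 : QQ z ⊓ P ≤ R := by
    refine h.Rmax _ inf_le_right ((isPGroup_QQ z).to_le inf_le_left) ?_
    intro x hx b hb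
    exact ⟨conj_QQ (h.cen x hx) hb.1, P.mul_mem (P.mul_mem hx hb.2) (P.inv_mem hx)⟩
  exact h1 ⟨F.mem_QQ hz (F.conj z hz k) (h.cen _ hk1), hk1⟩

variable {G : Type*} [Group G] [Finite G] {D : Set G}

theorem Full.not_spor_E (F : Full D) : Spor.IsoJ3 G ∨ Spor.IsoJ4 G ∨ Spor.IsoSuz G ∨ Spor.IsoCo1 G ∨ Spor.IsoCo2 G ∨
    Spor.IsoHN G ∨ Spor.IsoTh G ∨ Spor.IsoFi24' G ∨ Spor.IsoB G ∨ Spor.IsoM G → False := by
  have hf : Finite G := inferInstance
  have key : ∀ {Y : (z : G) → (P R : Subgroup G) → Prop}, (∃ (z : G) (P R : Subgroup G), SheetE z P R ∧ Y z P R) →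
      False := by
    rintro Y ⟨z, P, R, h, -⟩
    exact F.not_sheetE ⟨z, P, R, h⟩
  rintro (h | h | h | h | h | h | h | h | h | h)
  · exact F.not_sheetE (RowJ3.sheet G hf h)
  · exact F.not_sheetE (KFacts.J4.SheetJ4.exists_sheet h)
  · exact F.not_sheetE (KFacts.SuzSheetE.sheetE_of_iso h)
  · exact key (Y := fun _ P R => OddHalf.CaseM.SheetM P R) (RowCo1.facts G hf h)
  · exact key (Y := fun _ P R => OddHalf.CaseM.SheetM P R) (RowCo2.facts G hf h)
  · exact key (Y := fun _ P R => OddHalf.CaseM.SheetM P R) (RowHN.facts G hf h)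
  · exact F.not_sheetE (RowTh.exists_sheet G h)
  · exact key (Y := fun _ P R => OddHalf.CaseM.SheetM P R) (RowFi24.facts G hf h)
  · exact key (Y := fun _ P R => OddHalf.CaseM.SheetM P R) (RowB.facts G hf h)
  · exact key (Y := fun _ P R => OddHalf.CaseM.SheetM P R) (RowM.facts G hf h)

end Cfsg.Agent.H204.RI
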