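import Cfsg.Agent.H204.RI.Trans
import Cfsg.Agent.R08.AutT
import Cfsg.Agent.KFacts.FiTTh.Has
import Cfsg.Agent.KFacts.FiTTh.Der

/-!
# `Fi22`, `Fi23` (helper204, for S3126)

An involution is a product of at most three commuting transpositions; two such products `p e`, `p f` with `e f` of order
3 commute with a third one, `p h`.
-/

set_option autoImplicit false
set_option linter.unusedSectionVars false

namespace Cfsg.Agent.H204.RI

open Subgroup Cfsg

namespace FiKill

variable {X : Type*} [Group X]

theorem eq_of_braid {x y : X} (hc : x * y = y * x) (hx : x * x = 1) (hy : y * y = 1) (h3 : (x * y) ^ 3 = 1) : x = y := by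
  have h2 : (x * y) ^ 2 = 1 := by
    rw [pow_two]
    calc x * y * (x * y) = x * (y * x) * y := by group
      _ = x * (x * y) * y := by rw [hc]
      _ = (x * x) * (y * y) := by group
      _ = 1 := by rw [hx, hy, one_mul]
  rw [pow_succ, h2, one_mul] at h3
  rw [eq_inv_of_mul_eq_one_left h3]
  exact inv_eq_of_mul_eq_one_left hy

theorem comm_mul {x y p : X} (hx : x * p = p * x) (hy : y * p = p * y) : x * y * p = p * (x * y) := by
  rw [mul_assoc, hy, ← mul_assoc, hx, mul_assoc]

theorem kill {D : Set X} (F : WC D) {p h e f : X} (pp : p * p = 1) (hp : h * p = p * h) (ep : e * p = p * e)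
    (fp : f * p = p * f) (eh : e * h = h * e) (fh : f * h = h * f) (hh : p * h ∈ D) (he : p * e ∈ D) (hf : p * f ∈ D)
    (h3 : (e * f) ^ 3 = 1) (hne : e ≠ f) : False := by
  apply hne
  have h4 : (p * e * (p * f)) ^ 3 = 1 := by
    have h5 : p * e * (p * f) = e * f := by
      calc p * e * (p * f) = p * (e * p) * f := by group
        _ = (p * p) * (e * f) := by rw [ep]; group
        _ = _ := by rw [pp, one_mul]
    rw [h5, h3]
  have hc : ∀ x : X, x * p = p * x → x * h = h * x → Commute (p * x) (p * h) := by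
    intro x h1 h2
    exact Commute.mul_right (Commute.mul_left (Commute.refl p) h1) (Commute.mul_left (show p * h = h * p from hp.symm) h2)
  exact mul_left_cancel (F.eq_of_odd hh he hf (hc e ep eh) (hc f fp fh) (n := 3) (by decide) h4)

theorem conj_tri {D : Set X} (hD : ∀ d ∈ D, ∀ g : X, g * d * g⁻¹ ∈ D) {p s t f : X}
    (T : Cfsg.Agent.KFacts.FiTTh.Der.Tri s t f) (hs : s * p = p * s) (ht : t * p = p * t) (hf : f * p = p * f)
    (h : p * s ∈ D) : p * t ∈ D := by
  have h1 := hD _ h (f * s * t * f)
  have h2 : f * s * t * f * p = p * (f * s * t * f) := comm_mul (comm_mul (comm_mul hf hs) ht) hf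
  have h3 : f * s * t * f * (p * s) * (f * s * t * f)⁻¹ = p * t := by
    calc f * s * t * f * (p * s) * (f * s * t * f)⁻¹ = f * s * t * f * p * s * (f * s * t * f)⁻¹ := by group
      _ = p * (f * s * t * f * s * (f * s * t * f)⁻¹) := by rw [h2]; group
      _ = p * t := by rw [T.conj]
  rwa [h3] at h1

theorem conj_braid {D : Set X} (hD : ∀ d ∈ D, ∀ g : X, g * d * g⁻¹ ∈ D) {p e f : X}
    (he : e * p = p * e) (hf : f * p = p * f) (b : e * f * e = f * e * f) (h : p * e ∈ D) : p * f ∈ D := by
  have h1 := hD _ h (e * f)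
  have h3 : e * f * (p * e) * (e * f)⁻¹ = p * f := by
    calc e * f * (p * e) * (e * f)⁻¹ = e * f * p * e * (e * f)⁻¹ := by group
      _ = p * (e * f * e) * (e * f)⁻¹ := by rw [comm_mul he hf]; group
      _ = p * f := by rw [b]; group
  rwa [h3] at h1

theorem braid_of {x y : X} (hx : x * x = 1) (hy : y * y = 1) (h3 : (x * y) ^ 3 = 1) : x * y * x = y * x * y := by
  have h4 : x * y * (x * y) * (x * y) = 1 := by rw [← h3]; simp only [pow_succ, pow_zero, one_mul]
  calc x * y * x = x * y * x * (y * y) * (x * x) := by rw [hx, hy, mul_one, mul_one]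
    _ = (x * y * (x * y) * (x * y)) * (y⁻¹ * x⁻¹ * (y * x * x)) := by group
    _ = y⁻¹ * x⁻¹ * (y * (x * x)) := by rw [h4]; group
    _ = y * x * y := by
      rw [hx, mul_one, inv_eq_of_mul_eq_one_left hx, inv_eq_of_mul_eq_one_left hy]

end FiKill

section Fi22

open Cfsg.Agent.R08.AutT Cfsg.Agent.Fischer.Fi22PtsRep Cfsg.Agent.Fischer
open Cfsg.Agent.R01.FiFusion (Tri)
open Cfsg.Spor.Fi22 (Gen edges)
open FiKill

/-- adjacent equal nodes make `a` and `b` commute -/
theorem fi22_step {x y w : Gen} (hxy : (gen x : Spor.Fi22) = gen y) (hw : Spor.coxLabel edges w x = 2)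
    (h3 : Spor.coxLabel edges w y = 3) : (gen w : Spor.Fi22) = gen y := by
  have hc : (gen w : Spor.Fi22) * gen y = gen y * gen w := by
    rw [← hxy]; exact gen_comm hw
  have h := gen_cox w y
  rw [h3] at h
  exact eq_of_braid hc (gen_sq _) (gen_sq _) h

theorem fi22_bc : (gen .b : Spor.Fi22) ≠ gen .c := by
  intro h
  apply Fi22Order.ab_ne
  rw [h]
  exact gen_comm (by decide)

theorem fi22_cd : (gen .c : Spor.Fi22) ≠ gen .d := by
  intro h
  exact fi22_bc (fi22_step (x := .d) (y := .c) (w := .b) h.symm (by decide) (by decide))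

theorem fi22_de : (gen .d : Spor.Fi22) ≠ gen .e := by
  intro h
  exact fi22_cd (fi22_step (x := .e) (y := .d) (w := .c) h.symm (by decide) (by decide))

theorem fi22_dh : (gen .d : Spor.Fi22) ≠ gen .h := by
  intro h
  exact fi22_cd (fi22_step (x := .h) (y := .d) (w := .c) h.symm (by decide) (by decide))

theorem fi22_ef : (gen .e : Spor.Fi22) ≠ gen .f := by
  intro h
  exact fi22_de (fi22_step (x := .f) (y := .e) (w := .d) h.symm (by decide) (by decide))

theorem fi22_ac : (gen .a : Spor.Fi22) ≠ gen .c := by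
  intro h
  exact fi22_cd (fi22_step (x := .a) (y := .c) (w := .d) h (by decide) (by decide)).symm

theorem fi22_a {x : Gen} (hx : Spor.coxLabel edges .b x = 2) : (gen .a : Spor.Fi22) ≠ gen x := by
  intro h
  apply Fi22Order.ab_ne
  rw [h]
  exact (gen_comm hx).symm

theorem fi22_c {x : Gen} (hx : Spor.coxLabel edges .b x = 2) : (gen .c : Spor.Fi22) ≠ gen x := by
  intro h
  exact fi22_bc (fi22_step (x := x) (y := .c) (w := .b) h.symm hx (by decide))

theorem fi22_false {D : Set Spor.Fi22} (F : Full D) : False := by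
  obtain ⟨d, hd⟩ := F.ne
  have mem := Cfsg.Agent.R01.Fi22Facts.gen_mem
  have h3 : ((gen .e : Spor.Fi22) * gen .f) ^ 3 = 1 := gen_cox _ _
  have cae : (gen .a : Spor.Fi22) * gen .e = gen .e * gen .a := gen_comm (by decide)
  have caf : (gen .a : Spor.Fi22) * gen .f = gen .f * gen .a := gen_comm (by decide)
  have cah : (gen .a : Spor.Fi22) * gen .h = gen .h * gen .a := gen_comm (by decide)
  have cac : (gen .a : Spor.Fi22) * gen .c = gen .c * gen .a := gen_comm (by decide)
  have cce : (gen .c : Spor.Fi22) * gen .e = gen .e * gen .c := gen_comm (by decide)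
  have ccf : (gen .c : Spor.Fi22) * gen .f = gen .f * gen .c := gen_comm (by decide)
  have cch : (gen .c : Spor.Fi22) * gen .h = gen .h * gen .c := gen_comm (by decide)
  have ceh : (gen .e : Spor.Fi22) * gen .h = gen .h * gen .e := gen_comm (by decide)
  have cfh : (gen .f : Spor.Fi22) * gen .h = gen .h * gen .f := gen_comm (by decide)
  have dd := F.toWC.sq hd
  have cj : ∀ g : Spor.Fi22, g * d * g⁻¹ ∈ D := fun g => F.conj d hd g
  rcases tFacts.inv d dd (hfix d dd) with h | h | ⟨x, hx, y, hy, hxy, hc, h⟩ | ⟨x, y, w, htri, h⟩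
  · exact F.toWC.ne_one hd h
  · have key : ∀ x : Gen, (gen x : Spor.Fi22) ∈ D := by
      intro x
      obtain ⟨g, hg⟩ := tFacts.trans d h (gen x) (mem x)
      rw [← hg]
      exact cj g
    refine kill F.toWC (p := 1) (h := gen .a) (e := gen .e) (f := gen .f) (one_mul 1) (by group) (by group) (by group)
      cae.symm caf.symm ?_ ?_ ?_ h3 fi22_ef
    · rw [one_mul]; exact key .a
    · rw [one_mul]; exact key .e
    · rw [one_mul]; exact key .f
  · have key : ∀ z : Gen, Spor.coxLabel edges .b z = 2 → (gen .a : Spor.Fi22) * gen z = gen z * gen .a →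
        (gen .a : Spor.Fi22) * gen z ∈ D := by
      intro z hz hcz
      obtain ⟨g, hg1, hg2⟩ := Cfsg.Agent.R01.Fi22Facts.trans_commuting x hx y hy (gen .a) (mem .a) (gen z) (mem z) hxy
        (fi22_a hz) hc hcz
      have e : g * d * g⁻¹ = gen .a * gen z := by
        rw [h, ← hg1, ← hg2]; group
      rw [← e]
      exact cj g
    exact kill F.toWC (p := gen .a) (h := gen .h) (e := gen .e) (f := gen .f) (gen_sq _) cah.symm cae.symm caf.symm
      ceh cfh (key .h (by decide) cah) (key .e (by decide) cae) (key .f (by decide) caf) h3 fi22_ef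
  · have key : ∀ z : Gen, Spor.coxLabel edges .b z = 2 → (gen .a : Spor.Fi22) * gen z = gen z * gen .a →
        (gen .c : Spor.Fi22) * gen z = gen z * gen .c →
        (gen .a : Spor.Fi22) * gen .c * gen z ∈ D := by
      intro z hz hcz hcz'
      obtain ⟨g, hg1, hg2, hg3⟩ := tFacts.tri x y w (gen .a) (gen .c) (gen z) htri
        ⟨mem .a, mem .c, mem z, fi22_ac, fi22_a hz, fi22_c hz, cac, hcz, hcz'⟩
      have e : g * d * g⁻¹ = gen .a * gen .c * gen z := by
        rw [h, ← hg1, ← hg2, ← hg3]; group
      rw [← e]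
      exact cj g
    have pp : (gen .a : Spor.Fi22) * gen .c * (gen .a * gen .c) = 1 := by
      calc (gen .a : Spor.Fi22) * gen .c * (gen .a * gen .c) = gen .a * (gen .c * gen .a) * gen .c := by group
        _ = (gen .a * gen .a) * (gen .c * gen .c) := by rw [← cac]; group
        _ = 1 := by rw [gen_sq, gen_sq, one_mul]
    have cp : ∀ z : Gen, (gen .a : Spor.Fi22) * gen z = gen z * gen .a → (gen .c : Spor.Fi22) * gen z = gen z * gen .c →
        (gen z : Spor.Fi22) * (gen .a * gen .c) = gen .a * gen .c * gen z := fun z h1 h2 =>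
      (comm_mul h1 h2).symm
    exact kill F.toWC (p := gen .a * gen .c) (h := gen .h) (e := gen .e) (f := gen .f) pp (cp .h cah cch) (cp .e cae cce)
      (cp .f caf ccf) ceh cfh (key .h (by decide) cah cch) (key .e (by decide) cae cce) (key .f (by decide) caf ccf) h3
      fi22_ef

theorem Full.not_isoFi22 {G : Type*} [Group G] [Finite G] {D : Set G} (F : Full D) (h : Spor.IsoFi22 G) : False := by
  obtain ⟨e⟩ := h
  exact fi22_false (F.map_equiv e)

end Fi22

section Fi23

open Cfsg.Agent.KFacts.FiTTh.Cent Cfsg.Agent.Fischer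
open Cfsg.Agent.Fischer.Fi23Class Cfsg.Agent.Fischer.Fi23Hom
open Cfsg.Agent.Fischer.Fi23Final (gen_sq gen_rel)
open Cfsg.Agent.Fischer.Fi23Z
open Cfsg.Spor Cfsg.Spor.Fi23
open FiKill

theorem fi23_three {x y : Gen} (h : coxLabel edges x y = 3) : ((gen x : Fi23) * gen y) ^ 3 = 1 := by
  have h1 := gen_rel x y
  rwa [h] at h1

theorem fi23_step {x y w : Gen} (hxy : (gen x : Spor.Fi23) = gen y) (hw : Spor.coxLabel edges w x = 2)
    (h3 : Spor.coxLabel edges w y = 3) : (gen w : Spor.Fi23) = gen y := by
  have hc : (gen w : Spor.Fi23) * gen y = gen y * gen w := by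
    rw [← hxy]; exact gen_comm _ _ hw
  exact eq_of_braid hc (gen_sq _) (gen_sq _) (fi23_three h3)

theorem fi23_ef : (gen .e : Spor.Fi23) ≠ gen .f := by
  intro h
  have h1 := fi23_step (x := .e) (y := .f) (w := .g) h (by decide) (by decide)
  have h2 := fi23_step (x := .f) (y := .g) (w := .j) h1.symm (by decide) (by decide)
  apply z0_ncomm
  rw [h2]
  exact (z_gen .g (by decide)).symm

theorem fi23_tri {x y w : Gen} (hxy : coxLabel edges x y = 2) (hx : coxLabel edges w x = 3) (hy : coxLabel edges w y = 3) :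
    Cfsg.Agent.KFacts.FiTTh.Der.Tri (gen x : Fi23) (gen y) (gen w) :=
  ⟨gen_sq _, gen_sq _, gen_sq _, gen_comm _ _ hxy, braid_of (gen_sq _) (gen_sq _) (fi23_three hx),
    braid_of (gen_sq _) (gen_sq _) (fi23_three hy)⟩

theorem fi23_false {D : Set Spor.Fi23} [Finite Spor.Fi23] (F : Full D) : False := by
  obtain ⟨d, hd⟩ := F.ne
  have zc : ∀ x : Gen, x ≠ .j → (gen x : Fi23) * z0 = z0 * gen x := fun x hx => z_gen x hx
  have ac : ∀ x : Gen, coxLabel edges x .a = 2 → (gen x : Fi23) * gen .a = gen .a * gen x := fun x hx => gen_comm _ _ hx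
  have h3 : ((gen .e : Spor.Fi23) * gen .f) ^ 3 = 1 := fi23_three (by decide)
  have hb : (gen .e : Fi23) * gen .f * gen .e = gen .f * gen .e * gen .f := braid_of (gen_sq _) (gen_sq _) h3
  have ceh : (gen .e : Spor.Fi23) * gen .h = gen .h * gen .e := gen_comm _ _ (by decide)
  have cfh : (gen .f : Spor.Fi23) * gen .h = gen .h * gen .f := gen_comm _ _ (by decide)
  have cae : (gen .e : Spor.Fi23) * gen .a = gen .a * gen .e := gen_comm _ _ (by decide)
  have caf : (gen .f : Spor.Fi23) * gen .a = gen .a * gen .f := gen_comm _ _ (by decide)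
  have of_conj : ∀ x : Fi23, IsConj d x → x ∈ D := by
    intro x hx
    obtain ⟨g, hg⟩ := isConj_iff.1 hx
    rw [← hg]
    exact F.conj d hd g
  rcases KFacts.FiTTh.Has.inv d (F.toWC.sq hd) (F.toWC.ne_one hd) with h | h | h
  · have key : ∀ x : Gen, (gen x : Fi23) ∈ D := fun x => of_conj _ (h.trans (isConj_gen card_le x))
    refine kill F.toWC (p := 1) (h := gen .a) (e := gen .e) (f := gen .f) (one_mul 1) (by group) (by group) (by group)
      cae caf ?_ ?_ ?_ h3 fi23_ef
    · rw [one_mul]; exact key .a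
    · rw [one_mul]; exact key .e
    · rw [one_mul]; exact key .f
  · have ha := of_conj _ h
    have hc := conj_tri F.conj (fi23_tri (x := .a) (y := .c) (w := .b) (by decide) (by decide) (by decide))
      (zc .a (by decide)) (zc .c (by decide)) (zc .b (by decide)) ha
    have he := conj_tri F.conj (fi23_tri (x := .c) (y := .e) (w := .d) (by decide) (by decide) (by decide))
      (zc .c (by decide)) (zc .e (by decide)) (zc .d (by decide)) hc
    have hf := conj_braid F.conj (zc .e (by decide)) (zc .f (by decide)) hb he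
    exact kill F.toWC (p := z0) (h := gen .a) (e := gen .e) (f := gen .f) Cfsg.Agent.KFacts.FiTTh.Cent.zz (zc .a (by decide)) (zc .e (by decide))
      (zc .f (by decide)) cae caf ha he hf h3 fi23_ef
  · have hc := of_conj _ h
    have za : z0 * gen .a * (z0 * gen .a) = (1 : Fi23) := by
      calc (z0 : Fi23) * gen .a * (z0 * gen .a) = z0 * (gen .a * z0) * gen .a := by group
        _ = (z0 * z0) * (gen .a * gen .a) := by rw [zc .a (by decide)]; group
        _ = 1 := by rw [Cfsg.Agent.KFacts.FiTTh.Cent.zz, gen_sq, one_mul]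
    have pc : ∀ x : Gen, x ≠ .j → coxLabel edges x .a = 2 → (gen x : Fi23) * (z0 * gen .a) = z0 * gen .a * gen x := by
      intro x hx hxa
      rw [← mul_assoc, zc x hx, mul_assoc, ac x hxa, mul_assoc]
    have he := conj_tri F.conj (fi23_tri (x := .c) (y := .e) (w := .d) (by decide) (by decide) (by decide))
      (pc .c (by decide) (by decide)) (pc .e (by decide) (by decide)) (pc .d (by decide) (by decide)) hc
    have hh := conj_tri F.conj (fi23_tri (x := .c) (y := .h) (w := .d) (by decide) (by decide) (by decide))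
      (pc .c (by decide) (by decide)) (pc .h (by decide) (by decide)) (pc .d (by decide) (by decide)) hc
    have hf := conj_braid F.conj (pc .e (by decide) (by decide)) (pc .f (by decide) (by decide)) hb he
    exact kill F.toWC (p := z0 * gen .a) (h := gen .h) (e := gen .e) (f := gen .f) za (pc .h (by decide) (by decide))
      (pc .e (by decide) (by decide)) (pc .f (by decide) (by decide)) ceh cfh hh he hf h3 fi23_ef

theorem Full.not_isoFi23 {G : Type*} [Group G] [Finite G] {D : Set G} (F : Full D) (h : Spor.IsoFi23 G) : False := by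
  obtain ⟨e⟩ := h
  have : Finite Spor.Fi23 := Finite.of_equiv _ e.toEquiv
  exact fi23_false (F.map_equiv e)

end Fi23

end Cfsg.Agent.H204.RI
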