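import Cfsg.Agent.H204.RI.CharTwo
import Cfsg.Agent.H204.RI.Trans
import Cfsg.Agent.KFacts.HS.Final

/-!
# `HS` (helper204, for S3126)
-/

set_option autoImplicit false
set_option linter.unusedSectionVars false

namespace Cfsg.Agent.H204.RI

open Subgroup Cfsg Cfsg.Agent.OddHalf.D8 Cfsg.Agent.OddHalf.D8.HS.SheetHS

theorem Full.not_hs {G : Type*} [Group G] [Finite G] {D : Set G} (F : Full D) (h : Spor.IsoHS G) : False := by
  obtain ⟨z, u, k, P, R, sh, -⟩ := KFacts.HS.exists_sheet h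
  obtain ⟨S, hzS, -, hS⟩ := sh.syl
  obtain ⟨d, hd, hdS, hdc⟩ := F.syl S
  have hz : z ∈ D := by
    rcases hS d hdS fun x hx => hdc x hx with h1 | h1
    · exact absurd h1 (F.toWC.ne_one hd)
    · rwa [← h1]
  have hw : k⁻¹ * z * k ∈ D := F.toWC.conj' hz k
  have hwq : k⁻¹ * z * k ∈ QQ z := F.mem_QQ hz hw sh.kz
  have hPz : ∀ x ∈ P, x * z = z * x := by
    intro x hx
    have h1 : Commute x u := (sh.memP x).1 hx
    rw [← sh.uu]
    exact (h1.mul_right h1).eq
  have hle : QQ z ≤ R := by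
    refine sh.core _ (fun x hx => mem_centralizer_singleton_iff.2 (QQ_comm hx)) (isPGroup_QQ z) ?_
    intro x hx b hb
    exact conj_QQ (hPz x hx) hb
  exact sh.kP (sh.RP (hle hwq))

end Cfsg.Agent.H204.RI
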