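import Cfsg.Agent.H204.RI.Trans
import Cfsg.Agent.QTUnique.He

/-!
# `He` (helper204, for S3126)
-/

set_option autoImplicit false
set_option linter.unusedSectionVars false
set_option maxRecDepth 100000

namespace Cfsg.Agent.H204.RI

open Subgroup Cfsg Cfsg.Agent.GH.Pc Cfsg.Agent.GH.Models.Proj Cfsg.Agent.KFacts.He.Words
open Cfsg.Agent.QTUnique.He

namespace HeKill

noncomputable def cen (e : Fin 10 → Bool) : Bool :=
  isZ e || eqW (((List.finRange 10).filter fun i => e i).map xl) [3] ||
    (List.finRange 10).any fun i => !(eqW (((List.finRange 10).filter fun i => e i).map xl ++ [xl i])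
      ([xl i] ++ ((List.finRange 10).filter fun i => e i).map xl))

theorem cen_chk : allB 10 cen = true := by decide +kernel

theorem nf_eq (e : Fin 10 → Bool) : nf x e = E (((List.finRange 10).filter fun i => e i).map xl) := by
  unfold nf
  rw [word_x]

theorem eq_of_central {T : Subgroup Spor.He} (hT : T = closure (Set.range x)) {d : Spor.He} (hd : d ∈ T) (hd1 : d ≠ 1)
    (hc : ∀ t ∈ T, t * d = d * t) : d = E [3] := by
  subst hT
  obtain ⟨e, rfl⟩ := exists_nf P_ok sat hd
  have h := allB_spec cen_chk e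
  rw [cen, Bool.or_eq_true, Bool.or_eq_true] at h
  rcases h with (h | h) | h
  · exfalso
    apply hd1
    rw [isZ_spec h, nf_eq]
    simp [E_nil]
  · rw [nf_eq]
    exact E_eq h
  · exfalso
    rw [List.any_eq_true] at h
    obtain ⟨i, -, hi⟩ := h
    rw [Bool.not_eq_true'] at hi
    have h1 := E_ne hi
    rw [E_append, E_append, ← nf_eq] at h1
    exact h1 (hc (x i) (subset_closure ⟨i, rfl⟩)).symm

theorem chk_b : eqW [14, 11, 12, 3, 13, 11, 15, 3] [3, 14, 11, 12, 3, 13, 11, 15] = true := by decide +kernel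

theorem chk_a : eqW [10, 14, 11, 12, 3, 13, 11, 15, 10, 3] [3, 10, 14, 11, 12, 3, 13, 11, 15, 10] = true := by
  decide +kernel

theorem chk_ab : eqW [10, 14, 11, 12, 3, 13, 11, 15, 10, 14, 11, 12, 3, 13, 11, 15,
    10, 14, 11, 12, 3, 13, 11, 15, 10, 14, 11, 12, 3, 13, 11, 15,
    10, 14, 11, 12, 3, 13, 11, 15, 10, 14, 11, 12, 3, 13, 11, 15] [] = true := by decide +kernel

theorem chk_ne : eqW [10, 14, 11, 12, 3, 13, 11, 15, 10] [14, 11, 12, 3, 13, 11, 15] = false := by decide +kernel

theorem chk_inv : eqW [14, 11, 12, 13, 11, 15] [] = true := by decide +kernel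

theorem chk_inv' : eqW [10, 14, 11, 12, 13, 11, 15, 10] [] = true := by decide +kernel

end HeKill

open HeKill

theorem Full.not_he {D : Set Spor.He} (F : Full D) : False := by
  obtain ⟨T, hT⟩ := exists_T
  obtain ⟨d, hd, hdT, hdc⟩ := F.syl T
  have hz : E [3] ∈ D := by
    rw [← eq_of_central hT hdT (F.toWC.ne_one hd) fun t ht => hdc t ht]
    exact hd
  have hcj : ∀ u v : List ℕ, eqW (u ++ v) [] = true → E (u ++ [3] ++ v) ∈ D := by
    intro u v huv
    have h1 := E_eq huv
    rw [E_append, E_nil] at h1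
    have h2 := F.conj _ hz (E u)
    rw [E_append, E_append]
    rwa [inv_eq_of_mul_eq_one_right h1] at h2
  have ha := hcj [10, 14, 11, 12] [13, 11, 15, 10] chk_inv'
  have hb := hcj [14, 11, 12] [13, 11, 15] chk_inv
  have hab : (E ([10, 14, 11, 12] ++ [3] ++ [13, 11, 15, 10]) * E ([14, 11, 12] ++ [3] ++ [13, 11, 15])) ^ 3 = 1 := by
    rw [← E_append, pow_succ, pow_two, ← E_append, ← E_append, ← E_nil]
    exact E_eq chk_ab
  refine E_ne chk_ne (F.toWC.eq_of_odd hz ha hb ?_ ?_ (n := 3) (by decide) hab)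
  · show _ * _ = _ * _
    rw [← E_append, ← E_append]
    exact E_eq chk_a
  · show _ * _ = _ * _
    rw [← E_append, ← E_append]
    exact E_eq chk_b

theorem Full.not_isoHe {G : Type*} [Group G] [Finite G] {D : Set G} (F : Full D) (h : Spor.IsoHe G) : False := by
  obtain ⟨e⟩ := h
  exact (F.map_equiv e).not_he

end Cfsg.Agent.H204.RI
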