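import Cfsg.Agent.H204.RI.Trans
import Cfsg.Agent.KFacts.Ru.InvC
import Cfsg.Agent.KFacts.Ru.Core

/-!
# `Ru` (helper204, for S3126)
-/

set_option autoImplicit false
set_option linter.unusedSectionVars false
set_option maxRecDepth 100000

namespace Cfsg.Agent.H204.RI

open Subgroup Cfsg Cfsg.Agent.RuB Cfsg.Agent.RuB.Core Cfsg.Agent.KFacts.Ru
open Cfsg.Agent.RuD.Letters Cfsg.Agent.SporadicB Cfsg.Agent.SporRec.R3.Kernel Cfsg.Agent.SporRec.TCUpperCert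

namespace RuKill

theorem chk_a : chkEq [5, 3, 5, 3, 1, 1, 7, 5, 7, 5, 1, 1] [1, 1, 5, 3, 5, 3, 1, 1, 7, 5, 7, 5] = true := by
  decide +kernel

theorem chk_b : chkEq [7, 5, 7, 1, 1, 3, 5, 3, 1, 1] [1, 1, 7, 5, 7, 1, 1, 3, 5, 3] = true := by
  decide +kernel

theorem chk_ab : chkEq [5, 3, 5, 3, 1, 1, 7, 5, 7, 5, 7, 5, 7, 1, 1, 3, 5, 3,
    5, 3, 5, 3, 1, 1, 7, 5, 7, 5, 7, 5, 7, 1, 1, 3, 5, 3,
    5, 3, 5, 3, 1, 1, 7, 5, 7, 5, 7, 5, 7, 1, 1, 3, 5, 3,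
    5, 3, 5, 3, 1, 1, 7, 5, 7, 5, 7, 5, 7, 1, 1, 3, 5, 3,
    5, 3, 5, 3, 1, 1, 7, 5, 7, 5, 7, 5, 7, 1, 1, 3, 5, 3] [] = true := by
  decide +kernel

theorem chk_yy : chkEq [5, 5] [] = true := by decide +kernel

theorem chk_abne : Nat.beq (evalK [5, 3, 5, 3, 1, 1, 7, 5, 7, 5, 7, 5, 7, 1, 1, 3, 5, 3] 0) 0 = false := by
  decide +kernel

theorem yy : (Y : RuOrder.H) * Y = 1 := by
  have h := eq_of_chkEq chk_yy
  rw [wprod_cons, wprod_cons, wprod_nil, mul_one] at h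
  exact h

theorem comm_a : Y * F * Y * F * (S * S) * (F⁻¹ * Y * F⁻¹ * Y) * (S * S) =
    S * S * (Y * F * Y * F * (S * S) * (F⁻¹ * Y * F⁻¹ * Y)) := by wordeq chk_a

theorem comm_b : F⁻¹ * Y * F⁻¹ * (S * S) * (F * Y * F) * (S * S) =
    S * S * (F⁻¹ * Y * F⁻¹ * (S * S) * (F * Y * F)) := by wordeq chk_b

theorem ab : Y * F * Y * F * (S * S) * (F⁻¹ * Y * F⁻¹ * Y) * (F⁻¹ * Y * F⁻¹ * (S * S) * (F * Y * F)) *
    (Y * F * Y * F * (S * S) * (F⁻¹ * Y * F⁻¹ * Y) * (F⁻¹ * Y * F⁻¹ * (S * S) * (F * Y * F))) *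
    (Y * F * Y * F * (S * S) * (F⁻¹ * Y * F⁻¹ * Y) * (F⁻¹ * Y * F⁻¹ * (S * S) * (F * Y * F))) *
    (Y * F * Y * F * (S * S) * (F⁻¹ * Y * F⁻¹ * Y) * (F⁻¹ * Y * F⁻¹ * (S * S) * (F * Y * F))) *
    (Y * F * Y * F * (S * S) * (F⁻¹ * Y * F⁻¹ * Y) * (F⁻¹ * Y * F⁻¹ * (S * S) * (F * Y * F))) = 1 := by
  wordeq chk_ab

end RuKill

open RuKill

theorem Full.not_ru {D : Set RuOrder.H} [Finite RuOrder.H] (Fu : Full D) : False := by
  obtain ⟨C, -, -, -, hs, -, -⟩ := lets_model.exists_core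
  have hz1 : C.z 1 ≠ 1 := fun h => one_ne_zero (C.z_eq_one h)
  have hzs : S * S = C.z 1 := by
    rw [← hs, C.U_sq]
    congr 1
  obtain ⟨P, -, hPz, -, -, hPc⟩ := InvC.exists_sylow C
  obtain ⟨d, hd, hdP, hdc⟩ := Fu.syl P
  have hz : S * S ∈ D := by
    rw [hzs]
    rcases hPc d hdc with h1 | h1
    · exact absurd h1 (Fu.toWC.ne_one hd)
    · rwa [← h1]
  have hyi : (Y : RuOrder.H)⁻¹ = Y := inv_eq_of_mul_eq_one_right yy
  set a : RuOrder.H := Y * F * Y * F * (S * S) * (F⁻¹ * Y * F⁻¹ * Y) with ha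
  set b : RuOrder.H := F⁻¹ * Y * F⁻¹ * (S * S) * (F * Y * F) with hb
  have haD : a ∈ D := by
    have h1 := Fu.conj (S * S) hz (Y * F * Y * F)
    have h2 : Y * F * Y * F * (S * S) * (Y * F * Y * F)⁻¹ = a := by
      simp only [ha, mul_inv_rev, hyi, mul_assoc]
    rwa [h2] at h1
  have hbD : b ∈ D := by
    have h1 := Fu.conj (S * S) hz (F⁻¹ * Y * F⁻¹)
    have h2 : F⁻¹ * Y * F⁻¹ * (S * S) * (F⁻¹ * Y * F⁻¹)⁻¹ = b := by
      simp only [hb, mul_inv_rev, hyi, inv_inv, mul_assoc]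
    rwa [h2] at h1
  have h5 : (a * b) ^ 5 = 1 := by
    have h := ab
    rw [← h]
    simp only [pow_succ, pow_zero, one_mul, ha, hb]
  have e := Fu.toWC.eq_of_odd hz haD hbD comm_a comm_b (n := 5) (by decide) h5
  have h1 := evalK_eq [5, 3, 5, 3, 1, 1, 7, 5, 7, 5, 7, 5, 7, 1, 1, 3, 5, 3] RuOrder.b1
  have h2 : (wprod ml [5, 3, 5, 3, 1, 1, 7, 5, 7, 5, 7, 5, 7, 1, 1, 3, 5, 3] : RuOrder.H) = 1 := by
    have h3 : a * b = 1 := by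
      rw [e]
      have := Fu.toWC.sq hbD
      exact this
    rw [← h3]
    show (_ : RuOrder.H) = _
    simp only [wprod_cons, wprod_nil, lv, ml, List.getD_cons_succ, List.getD_cons_zero, ha, hb, mul_assoc, mul_one]
  rw [h2] at h1
  have h3 : evalK [5, 3, 5, 3, 1, 1, 7, 5, 7, 5, 7, 5, 7, 1, 1, 3, 5, 3] 0 = 0 := h1.symm
  have h4 := chk_abne
  rw [h3] at h4
  exact absurd h4 (by decide)

theorem Full.not_isoRu {G : Type*} [Group G] [Finite G] {D : Set G} (F : Full D) (h : Spor.IsoRu G) : False := by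
  obtain ⟨e⟩ := h
  have e' : G ≃* RuOrder.H := e.trans Cfsg.Agent.RuLat.Main.equiv
  have : Finite RuOrder.H := Finite.of_equiv _ e'.toEquiv
  exact (F.map_equiv e').not_ru

end Cfsg.Agent.H204.RI
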