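import Cfsg.Agent.H204.RI.Quad
import Cfsg.Agent.Nodes.RGDLie

/-!
# The types of the groups of characteristic two (helper204, for S3126)

`HasTy p G M` for the classical and exceptional groups and `²E₆(q)`.
-/

set_option autoImplicit false
set_option linter.unusedSectionVars false

namespace Cfsg.Agent.H204.RI

open Cfsg Cfsg.Agent.ChevalleyStructure.CoxeterGeom Cfsg.Agent.Tits.Roots
open Cfsg.Agent.Nodes
open Cfsg.Agent.Nodes.Comb Cfsg.Agent.Nodes.Reps Cfsg.Agent.Nodes.WittRoot Cfsg.Agent.Nodes.BNOf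
open Cfsg.Agent.Nodes.RGDLib Cfsg.Agent.Nodes.WittAll
open Cfsg.Agent.TitsThree Cfsg.Agent.TitsThree.Siegel Cfsg.Agent.TitsThree.WittFrame
  Cfsg.Agent.TitsThree.WittWeyl Cfsg.Agent.TitsThree.FrameCN

theorem hasTy_PSL {F : Type*} [Field F] [Finite F] (n : ℕ) {p : ℕ} [Fact p.Prime] [CharP F p] :
    HasTy p (Matrix.ProjectiveSpecialLinearGroup (Fin (n + 1)) F) (Cfsg.Agent.LieRecognition.BNCox.cA n) :=
  have : Finite (Cfsg.Agent.LieRecognition.BNCox.cA n).Group :=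
    RootsA.finite_W (Cfsg.Agent.LieRecognition.BNCox.cA n).toCoxeterSystem (RootsA.isCartan n)
  ⟨RootsA.AA n, RootsA.isCartan n, _, _, _, this, RGDTypeA.rgd_psl _ _, RGDTypeA.G1_psl_eq_top _ _⟩

section TypeC

open Cfsg.Agent.Nodes.TypeC

variable {F : Type*} [Field F] {V : Type*} [AddCommGroup V] [Module F V] {H : HForm F V} {n : ℕ}
  {Fr : Frame H (Fin n)} {K : Type*} [Group K] (M : Model Fr K) {p : ℕ}

theorem hasTy_C (hA : AmbT Fr p M.I) [Finite V] [Fact p.Prime] [CharP F p] {p0 : Fr.Adm} (hp0 : p0.c ≠ 0)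
    (hn : 0 < n) : HasTy p K (CoxeterMatrix.B n) :=
  ⟨TypeC.A n, TypeC.isCartan n, _, _, _, finite_W (CoxeterMatrix.B n).toCoxeterSystem,
    rgdC_model M hA hp0 _, WittModel.G1_eq_top _ hn _⟩

end TypeC

open Cfsg.Agent.Nodes.WittU Cfsg.Agent.Nodes.WittInst

theorem hasTy_PSU {F : Type*} [Field F] [Fintype F] {q N m : ℕ} (hF : Fintype.card F = q ^ 2) (hN : 3 ≤ N)
    (hm : N = 2 * m ∨ N = 2 * m + 1) {p : ℕ} [Fact p.Prime] [CharP F p] :
    HasTy p (PSU N F q) (CoxeterMatrix.B m) := by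
  obtain ⟨W, -⟩ := exists_wframe hF hm
  obtain ⟨p0, hp0, -⟩ := exists_adm hF W
  exact hasTy_C (KInstU.model hF hN W) (AmbT.of_amb (amb_U hF W) p) hp0 (by omega)

theorem hasTy_PSp {F : Type*} [Field F] [Finite F] {m : ℕ} (hm : 1 ≤ m) {p : ℕ}
    [Fact p.Prime] [CharP F p] : HasTy p (PSp m F) (CoxeterMatrix.B m) :=
  hasTy_C (KInstSp.model m F) (AmbT.of_amb amb_Sp p) (p0 := SpIdent.adm 1) one_ne_zero hm

section Orthogonal

open QuadraticMap
open Cfsg.Agent.LieClassical Cfsg.Agent.LieClassical.OrthCore Cfsg.Agent.LieClassical.OrthTrans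
open Cfsg.Agent.LieClassical.OrthSimple Cfsg.Agent.LieClassical.OrthFinite
open Cfsg.Agent.LieClassical.OrthForms
open Cfsg.Agent.TitsThree.WBridge Cfsg.Agent.TitsThree.KSideO Cfsg.Agent.TitsThree.StdData

variable {F : Type*} [Field F] {m : ℕ}

theorem hasTy_PO_minus [Finite F] (a b : F)
    (hab : ∀ z₁ z₂ : F, z₁ ^ 2 + a * z₁ * z₂ + b * z₂ ^ 2 = 0 → z₁ = 0 ∧ z₂ = 0)
    (hm : 2 ≤ m) {p : ℕ} [Fact p.Prime] [CharP F p] :
    HasTy p (Cfsg.POmega F (Cfsg.quadFormMinus m F a b)) (CoxeterMatrix.B m) := by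
  rw [← coe_minusForm]
  have hG : Good (minusForm m F a b) := by
    apply good_of_finite (nondeg_minusForm m F a b hab)
    rw [Module.finrank_fintype_fun_eq_card, Fintype.card_sum, Fintype.card_sum, Fintype.card_fin,
      Fintype.card_fin]
    omega
  have hp : ((embMinus m F a b hab).ngt ⟨(1, 0), -nf a b (1, 0), rfl⟩).c ≠ 0 := by
    change (1 : F)⁻¹ * (-nf a b (1, 0)) ≠ 0
    simp [nf]
  have hA : AmbT (toFrame (wminus m F a b hab)) p (E (minusForm m F a b)) := by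
    by_cases h2 : (2 : F) = 0
    · have hp2 : p = 2 := by
        have h3 : CharP F 2 := CharTwo.of_one_ne_zero_of_two_eq_zero one_ne_zero h2
        exact CharP.eq F ‹CharP F p› h3
      subst hp2
      exact ambT_O _ fun g hg hg2 hb => fixp_minus a b hab h2 hm hG hg hg2 hb
    · exact AmbT.of_amb (amb_O_of_two _ h2) p
  exact hasTy_C (model (wminus m F a b hab) hG ⟨_, hp⟩) hA hp (by omega)

theorem hasTy_PO_plus [Finite F] (n : ℕ) {p : ℕ} [Fact p.Prime] [CharP F p] :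
    HasTy (l := n + 3) p (Cfsg.POmega F (Cfsg.quadFormPlus (n + 3) F)) (Nodes.TypeD.M (n + 1)) := by
  rw [← coe_plusForm]
  have hG : Good (plusForm (n + 3) F) := by
    apply good_of_finite (nondeg_plusForm (n + 3) F)
    rw [Module.finrank_fintype_fun_eq_card, Fintype.card_sum, Fintype.card_fin]
    omega
  exact ⟨Nodes.TypeD.A (n + 1), Nodes.TypeD.isCartan (n + 1), _, _, _,
    Nodes.TypeD.finite_W (Nodes.TypeD.M (n + 1)).toCoxeterSystem,
    rgdD_model (wplus (n + 3) F) hG (amb_plus _) (adm_plus _) _,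
    G1D_eq_top (wplus (n + 3) F) (toPOmega hG) (toPOmega_surjective hG) (adm_plus _) _⟩

end Orthogonal

open Cfsg.Lie Cfsg.Agent.Nodes.RGDChev

theorem hasTy_group {D : ChevalleyDatum} {l : ℕ} {M : CoxeterMatrix (Fin l)} (hp : IsType D l M) (K : Type*)
    [Field K] [Finite K] (p : ℕ) [CharP K p] : HasTy p ↥(D.group K) M := by
  have : Fact p.Prime := ⟨CharP.char_is_prime K p⟩
  exact ⟨_, hp.isCartan, _, _, _, finite_W hp M.toCoxeterSystem, rgd (K := K) hp M.toCoxeterSystem p, G1_eq_top hp _⟩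

theorem hasTy_twE6 {K : Type*} [Field K] [Fintype K] {q : ℕ} (hq : IsPrimePow q) (hK : Fintype.card K = q ^ 2)
    (p : ℕ) [CharP K p] : HasTy p ↥(twistedE6 K q) CoxeterMatrix.F₄ := by
  have : Fact p.Prime := ⟨CharP.char_is_prime K p⟩
  obtain ⟨φ, hφ, hqq⟩ := ChevalleyStructure.TwE6Basic.exists_frob hq hK
  exact ⟨_, RGDTwE6.isCartan, _, _, _,
    RGDFold.finite_W (hp := RGDTwE6.hp) CoxeterMatrix.F₄.toCoxeterSystem RGDTwE6.isCartan RGDTwE6.foldData,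
    RGDFold.rgd CoxeterMatrix.F₄.toCoxeterSystem RGDTwE6.isCartan RGDTwE6.foldData (RGDTwE6.foldGrp hφ hqq) p,
    RGDFold.G1_eq_top CoxeterMatrix.F₄.toCoxeterSystem RGDTwE6.isCartan RGDTwE6.foldData (RGDTwE6.foldGrp hφ hqq) p⟩

/-- **What is left in characteristic two**: rank at most two. -/
theorem Full.char_two_cases {G : Type*} [Group G] [Finite G] [IsSimpleGroup G] {D : Set G} (F : Full D)
    (hG : IsLieTypeChar 2 G) :
    (∃ (k : Type) (_ : Field k) (_ : Fintype k) (_ : CharP k 2), Nonempty (G ≃* Matrix.ProjectiveSpecialLinearGroup (Fin 2) k) ∨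
      Nonempty (G ≃* Matrix.ProjectiveSpecialLinearGroup (Fin 3) k)) ∨
    (∃ (k : Type) (_ : Field k) (_ : Fintype k) (_ : CharP k 2), 3 ≤ Fintype.card k ∧ Nonempty (G ≃* PSp 2 k)) ∨
    (∃ (k : Type) (_ : Field k) (_ : Fintype k) (_ : CharP k 2) (n q : ℕ), Fintype.card k = q ^ 2 ∧ 3 ≤ n ∧ n ≤ 5 ∧
      Nonempty (G ≃* PSU n k q)) ∨
    (∃ (k : Type) (_ : Field k) (_ : Fintype k) (_ : CharP k 2), 3 ≤ Fintype.card k ∧ Nonempty (G ≃* chevG2.group k)) ∨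
    (∃ (k : Type) (_ : Field k) (_ : Fintype k) (_ : CharP k 2) (q : ℕ), IsPrimePow q ∧ Fintype.card k = q ^ 3 ∧
      Nonempty (G ≃* twistedD4 k q)) ∨ IsoSuzuki G ∨ Iso2F4 G := by
  have hfact : Fact (Nat.Prime 2) := ⟨Nat.prime_two⟩
  rcases hG with h | h | h | h | h | h | h | h | ⟨-, h⟩ | ⟨-, h⟩ | ⟨h, -⟩
  · obtain ⟨k, i1, i2, i3, n, hn, -, ⟨e⟩⟩ := h
    by_cases h4 : 4 ≤ n
    · exfalso
      obtain ⟨m, rfl⟩ : ∃ m, n = m + 1 := ⟨n - 1, by omega⟩
      exact F.not_rank_three ((hasTy_PSL (F := k) (p := 2) m).of_equiv e.symm) (by omega)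
    · left
      refine ⟨k, i1, i2, i3, ?_⟩
      rcases (by omega : n = 2 ∨ n = 3) with rfl | rfl
      · exact Or.inl ⟨e⟩
      · exact Or.inr ⟨e⟩
  · obtain ⟨k, i1, i2, i3, m, hm, h2, ⟨e⟩⟩ := h
    by_cases h4 : 3 ≤ m
    · exact (F.not_rank_three ((hasTy_PSp (F := k) (p := 2) (m := m) (by omega)).of_equiv e.symm) h4).elim
    · obtain rfl : m = 2 := by omega
      exact Or.inr (Or.inl ⟨k, i1, i2, i3, h2 rfl, ⟨e⟩⟩)
  · obtain ⟨k, i1, i2, i3, n, q, hk, hn, -, ⟨e⟩⟩ := h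
    by_cases h4 : 6 ≤ n
    · exfalso
      obtain ⟨m, hm⟩ : ∃ m, n = 2 * m ∨ n = 2 * m + 1 := ⟨n / 2, by omega⟩
      exact F.not_rank_three ((hasTy_PSU (p := 2) hk hn hm).of_equiv e.symm) (by omega)
    · exact Or.inr (Or.inr (Or.inl ⟨k, i1, i2, i3, n, q, hk, hn, by omega, ⟨e⟩⟩))
  · obtain ⟨k, _, _, _, m, -, h, -⟩ := h
    exfalso
    obtain ⟨n, -, hn⟩ := FiniteField.card k 2
    rw [hn] at h
    exact (Nat.not_even_iff_odd.2 h) (even_two.pow_of_ne_zero n.ne_zero)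
  · obtain ⟨k, i1, i2, i3, m, hm, ⟨e⟩⟩ := h
    exfalso
    obtain ⟨n, rfl⟩ : ∃ n, m = n + 3 := ⟨m - 3, by omega⟩
    exact F.not_rank_three ((hasTy_PO_plus (F := k) (p := 2) n).of_equiv e.symm) (by omega)
  · obtain ⟨k, i1, i2, i3, m, a, b, hm, hab, ⟨e⟩⟩ := h
    exact (F.not_rank_three ((hasTy_PO_minus (p := 2) a b hab (m := m - 1) (by omega)).of_equiv e.symm) (by omega)).elim
  · obtain ⟨k, i1, i2, i3, ⟨h3, e⟩ | ⟨⟨e⟩⟩ | ⟨⟨e⟩⟩ | ⟨⟨e⟩⟩ | ⟨⟨e⟩⟩⟩ := h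
    · exact Or.inr (Or.inr (Or.inr (Or.inl ⟨k, i1, i2, i3, h3, e⟩)))
    · exact (F.not_rank_three ((hasTy_group (l := 4) (M := CoxeterMatrix.F₄) (by simp [IsType, typeList]) k 2).of_equiv
        e.symm) (by norm_num)).elim
    · exact (F.not_rank_three ((hasTy_group (l := 6) (M := CoxeterMatrix.E₆) (by simp [IsType, typeList]) k 2).of_equiv
        e.symm) (by norm_num)).elim
    · exact (F.not_rank_three ((hasTy_group (l := 7) (M := CoxeterMatrix.E₇) (by simp [IsType, typeList]) k 2).of_equiv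
        e.symm) (by norm_num)).elim
    · exact (F.not_rank_three ((hasTy_group (l := 8) (M := CoxeterMatrix.E₈) (by simp [IsType, typeList]) k 2).of_equiv
        e.symm) (by norm_num)).elim
  · obtain ⟨k, i1, i2, i3, q, hq, ⟨hk, ⟨e⟩⟩ | ⟨hk, e⟩⟩ := h
    · exact (F.not_rank_three ((hasTy_twE6 hq hk 2).of_equiv e.symm) (by norm_num)).elim
    · exact Or.inr (Or.inr (Or.inr (Or.inr (Or.inl ⟨k, i1, i2, i3, q, hq, hk, e⟩))))
  · exact Or.inr (Or.inr (Or.inr (Or.inr (Or.inr (Or.inl h)))))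
  · exact Or.inr (Or.inr (Or.inr (Or.inr (Or.inr (Or.inr h)))))
  · omega

end Cfsg.Agent.H204.RI
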