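import Cfsg.Agent.H204.RI.Types
import Cfsg.Agent.H204.RI.Trans
import Cfsg.Agent.H685.ThreeWitt
import Cfsg.Agent.Nodes.Unique

/-!
# Unitary and symplectic groups of Witt index two, characteristic two (helper204, for S3126)

`Full.not_witt_two` : `PSp₄(q)`, `q > 2`, `PSU₄(q)`, `PSU₅(q)`, `q` even, have no class `D`.
-/

set_option autoImplicit false
set_option linter.unusedSectionVars false

namespace Cfsg.Agent.H204.RI

open Cfsg Cfsg.Agent.ChevalleyStructure.CoxeterGeom Cfsg.Agent.Tits.Roots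
open Cfsg.Agent.Nodes
open Cfsg.Agent.Nodes.Comb Cfsg.Agent.Nodes.Reps Cfsg.Agent.Nodes.WittRoot Cfsg.Agent.Nodes.BNOf
open Cfsg.Agent.Nodes.RGDLib Cfsg.Agent.Nodes.WittAll
open Cfsg.Agent.TitsThree Cfsg.Agent.TitsThree.Siegel Cfsg.Agent.TitsThree.WittFrame
  Cfsg.Agent.TitsThree.WittWeyl Cfsg.Agent.TitsThree.FrameCN
open Cfsg.Agent.Nodes.TypeC Cfsg.Agent.Nodes.StabComb
open Subgroup

section

variable {F : Type*} [Field F] {V : Type*} [AddCommGroup V] [Module F V] {H : HForm F V}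
  {Fr : Frame H (Fin 2)} {K : Type*} [Group K] (M : Model Fr K)

/-- the two signed indices -/
abbrev i0 : Fin 2 × Bool := (0, true)
abbrev i1 : Fin 2 × Bool := (1, true)
abbrev i1' : Fin 2 × Bool := (1, false)

theorem mZ_mul (p q : Fr.Adm) : M.Z i0 (p * q) = M.Z i0 p * M.Z i0 q := by
  have h : (⟨Fr.Z i0 (p * q), M.hZ _ _⟩ : M.I) = ⟨Fr.Z i0 p, M.hZ _ _⟩ * ⟨Fr.Z i0 q, M.hZ _ _⟩ :=
    Subtype.ext (Fr.Z_mul _ _ _)
  unfold Model.Z
  rw [h, map_mul]

theorem mX_add (s t : F) : M.X i0 i1 (s + t) = M.X i0 i1 s * M.X i0 i1 t := by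
  have h : (⟨Fr.X i0 i1 (s + t), M.hX _ _ _⟩ : M.I) = ⟨Fr.X i0 i1 s, M.hX _ _ _⟩ * ⟨Fr.X i0 i1 t, M.hX _ _ _⟩ :=
    Subtype.ext (Fr.X_add i0 i1 s t)
  unfold Model.X
  rw [h, map_mul]

theorem mZX_comm (p : Fr.Adm) (t : F) : M.Z i0 p * M.X i0 i1 t = M.X i0 i1 t * M.Z i0 p :=
  (M.commute_ZX (x := i0) (y := i0) (z := i1) (by decide) (by decide) p t).eq

/-- the elements `X_{0,1}(t) Z_0(p)` -/
def XZ : Subgroup K where
  carrier := {k | ∃ t p, k = M.X i0 i1 t * M.Z i0 p}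
  one_mem' := by
    refine ⟨0, 1, ?_⟩
    have h1 : (⟨Fr.X i0 i1 0, M.hX _ _ _⟩ : M.I) = 1 := Subtype.ext (Fr.X_zero i0 i1)
    have h2 : (⟨Fr.Z i0 1, M.hZ _ _⟩ : M.I) = 1 := Subtype.ext (Fr.Z_one _)
    unfold Model.X Model.Z
    rw [h1, h2, map_one, mul_one]
  mul_mem' := by
    rintro _ _ ⟨s, p, rfl⟩ ⟨t, q, rfl⟩
    refine ⟨s + t, p * q, ?_⟩
    rw [mX_add, mZ_mul]
    calc M.X i0 i1 s * M.Z i0 p * (M.X i0 i1 t * M.Z i0 q) = M.X i0 i1 s * (M.Z i0 p * M.X i0 i1 t) * M.Z i0 q := by group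
      _ = _ := by rw [mZX_comm]; group
  inv_mem' := by
    rintro _ ⟨t, p, rfl⟩
    refine ⟨-t, p⁻¹, ?_⟩
    have h1 : M.X i0 i1 (-t) = (M.X i0 i1 t)⁻¹ := by
      have h : (⟨Fr.X i0 i1 (-t), M.hX _ _ _⟩ : M.I) = (⟨Fr.X i0 i1 t, M.hX _ _ _⟩)⁻¹ := Subtype.ext (Fr.X_neg i0 i1 t)
      unfold Model.X
      rw [h, map_inv]
    have h2 : M.Z i0 p⁻¹ = (M.Z i0 p)⁻¹ := by
      have h : (⟨Fr.Z i0 p⁻¹, M.hZ _ _⟩ : M.I) = (⟨Fr.Z i0 p, M.hZ _ _⟩)⁻¹ := Subtype.ext (Fr.Z_inv _ _)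
      unfold Model.Z
      rw [h, map_inv]
    rw [h1, h2, mul_inv_rev]
    have := (M.commute_ZX (x := i0) (y := i0) (z := i1) (by decide) (by decide) p t).inv_inv
    exact this.eq

theorem ee_two (x : Fin 2 → ℤ) : ee x 0 = x 0 ∧ ee x 1 = 2 * x 1 - x 0 := by
  unfold ee
  constructor
  · rw [Finset.sum_apply, Fin.sum_univ_two, Pi.smul_apply, Pi.smul_apply, bt_apply, bt_apply]
    simp
  · rw [Finset.sum_apply, Fin.sum_univ_two, Pi.smul_apply, Pi.smul_apply, bt_apply, bt_apply]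
    simp
    ring

variable {W : Type*} [Group W] (cs : CoxeterSystem (CoxeterMatrix.B 2) W)

theorem le_XZ {x : Fin 2 → ℤ} (hx : IsRoot cs (isCartan 2) x) (h0 : 0 < x 0) (h1 : 0 < x 1) :
    WittModel.X M x ≤ XZ M := by
  obtain ⟨a, b, hab, ex⟩ := (isRoot_iff (cs := cs)).1 hx
  have e0 := congrFun ex 0
  have e1 := congrFun ex 1
  rw [(ee_two x).1, Pi.add_apply, wt_apply, wt_apply] at e0
  rw [(ee_two x).2, Pi.add_apply, wt_apply, wt_apply] at e1
  have hcases : (a = i0 ∧ b = i1) ∨ (a = i1 ∧ b = i0) ∨ (a = i0 ∧ b = i0) := by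
    obtain ⟨a, s⟩ := a
    obtain ⟨b, t⟩ := b
    rcases hab with hab | hab
    · fin_cases a <;> fin_cases b <;> cases s <;> cases t <;> simp at e0 e1 hab ⊢ <;> omega
    · have h3 := congrArg Prod.fst hab
      have h4 := congrArg Prod.snd hab
      simp only at h3 h4
      subst h3 h4
      fin_cases a <;> cases s <;> simp at e0 e1 ⊢ <;> omega
  rintro k hk
  obtain ⟨g, hg, hgx, rfl⟩ := (WittModel.mem_X M).1 hk
  rw [rg_eq Fr hab ex] at hgx
  have hfin : ∀ {t}, g = Fr.X i0 i1 t → M.φ ⟨g, hg⟩ ∈ XZ M := by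
    rintro t rfl
    refine ⟨t, 1, ?_⟩
    have h2 : (⟨Fr.Z i0 1, M.hZ _ _⟩ : M.I) = 1 := Subtype.ext (Fr.Z_one _)
    unfold Model.X Model.Z
    rw [h2, map_one, mul_one]
  rcases hcases with ⟨rfl, rfl⟩ | ⟨rfl, rfl⟩ | ⟨rfl, rfl⟩
  · rw [PG_ne Fr (by decide)] at hgx
    obtain ⟨t, ht⟩ := hgx
    exact hfin ht
  · rw [PG_ne Fr (by decide), XG_swap Fr (by decide)] at hgx
    obtain ⟨t, ht⟩ := hgx
    exact hfin ht
  · rw [PG_self] at hgx
    obtain ⟨p, rfl⟩ := hgx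
    refine ⟨0, p, ?_⟩
    have h1 : (⟨Fr.X i0 i1 0, M.hX _ _ _⟩ : M.I) = 1 := Subtype.ext (Fr.X_zero i0 i1)
    unfold Model.X Model.Z
    rw [h1, map_one, one_mul]

theorem c_eq_zero {p : Fr.Adm} (h : M.Z i0 p = 1) : p.c = 0 := by
  by_contra hc
  obtain ⟨a, ha⟩ := M.ker (Fr.b (neg i0)) ⟨Fr.Z i0 p, M.hZ _ _⟩ h
  exact H685.Three.not_line_Z Fr hc ha

theorem t_eq_zero {t : F} (h : M.X i0 i1 t = 1) : t = 0 := by
  obtain ⟨a, ha⟩ := M.ker (Fr.b (neg i1)) ⟨Fr.X i0 i1 t, M.hX _ _ _⟩ h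
  have ha' : Fr.X i0 i1 t (Fr.b (neg i1)) = a • Fr.b (neg i1) := ha
  rw [X_apply_neg Fr (by decide)] at ha'
  have h1 : H.h (Fr.b (neg i1) + t • Fr.b i0) (Fr.b (neg i0)) = H.h (a • Fr.b (neg i1)) (Fr.b (neg i0)) := by rw [ha']
  rw [H.add_left, H.smul_left, H.smul_left, Fr.hb_of_ne (x := neg i1) (y := neg i0) (by decide), mul_zero, zero_add,
    Fr.hb_self_neg] at h1
  exact (mul_eq_zero.1 h1).resolve_right (Fr.η_ne _)

theorem WC.normalizer_of_comm {K : Type*} [Group K] {D : Set K} (h : WC D) {z g : K} (hg : g * z = z * g) :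
    g ∈ normalizer (Wc D z : Set K) := by
  rw [h.mem_normalizer_Wc]
  congr 1
  rw [hg, mul_inv_cancel_right]

/-- **Witt index two** -/
theorem Full.not_witt_two [Finite K] [IsSimpleGroup K] {D : Set K} (Fu : Full D) (hA : AmbT Fr 2 M.I) [Finite V]
    [CharP F 2] {p0 : Fr.Adm} (hp0 : p0.c ≠ 0) (hw : p0.w = 0)
    (hq : (∃ m, H.σ m ≠ m) ∨ ∃ a : F, a ≠ 0 ∧ a ≠ 1) : False := by
  have hfact : Fact (Nat.Prime 2) := ⟨Nat.prime_two⟩
  set cs := (CoxeterMatrix.B 2).toCoxeterSystem with hcs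
  have hW : Finite (CoxeterMatrix.B 2).Group := finite_W cs
  have R := rgdC_model M hA hp0 cs
  have hX : Nodes.RGDLib.G1 cs (isCartan 2) (WittModel.X M) = ⊤ := WittModel.G1_eq_top _ (by norm_num) _
  obtain ⟨⟨z, hz, hzU, hzc⟩, hrad⟩ := Fu.exists_rad hW R hX
  have hne : ∀ i : Fin 2, ({i} : Set (Fin 2)) ≠ Set.univ := by
    intro i hcon
    have h1 : i + 1 ∈ ({i} : Set (Fin 2)) := by rw [hcon]; trivial
    rw [Set.mem_singleton_iff] at h1
    revert h1; fin_cases i <;> decide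
  have hclosed : ∀ J : Set (Fin 2), Nodes.Unique.Closed cs (isCartan 2) (NotJ cs (isCartan 2) J) := by
    rintro J x ⟨hx, hx0, k, hk, hkx⟩ y ⟨hy, hy0, -⟩ w hw
    refine ⟨hw.1, RGD.nonneg_of_btwn hx0 hy0 hw, k, hk, ?_⟩
    obtain ⟨-, m, i, j, hm, hi, hj, e⟩ := hw
    have e' := congrFun e k
    simp only [Pi.smul_apply, Pi.add_apply, smul_eq_mul] at e'
    have h1 : 0 < m * w k := by
      rw [e']
      have := hy0 k
      simp only [Pi.zero_apply] at this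
      have h2 := mul_pos hi hkx
      have h3 := mul_nonneg hj.le this
      linarith
    exact pos_of_mul_pos_right h1 hm.le
  have hzXZ : z ∈ XZ M := by
    have h0 := hrad z hzc {0} (hne 0)
    have h1 := hrad z hzc {1} (hne 1)
    have h2 : z ∈ RGD.Sup (WittModel.X M) (NotJ cs (isCartan 2) {0} ∩ NotJ cs (isCartan 2) {1}) := by
      rw [← Nodes.Unique.inf_eq R (fun x hx => ⟨hx.1, hx.2.1⟩) (fun x hx => ⟨hx.1, hx.2.1⟩) (hclosed _) (hclosed _)]
      exact ⟨h0, h1⟩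
    refine (RGD.Sup_le fun x hx => ?_ : RGD.Sup (WittModel.X M) _ ≤ XZ M) h2
    obtain ⟨⟨hx1, hx2, k, hk, hkx⟩, ⟨-, -, l, hl, hlx⟩⟩ := hx
    have hk1 : k = 1 := by
      rw [Set.mem_singleton_iff] at hk; omega
    have hl1 : l = 0 := by
      rw [Set.mem_singleton_iff] at hl; omega
    subst hk1 hl1
    exact le_XZ M cs hx1 hlx hkx
  obtain ⟨t, p, hzt⟩ := hzXZ
  -- elements of `U`
  have hU : ∀ {a b : Fin 2 × Bool} {x : Fin 2 → ℤ}, Ok a b → ee x = wt a + wt b → 0 ≤ x → ∀ {g : V ≃ₗ[F] V}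
      (hg : g ∈ M.I), g ∈ PG Fr a b → M.φ ⟨g, hg⟩ ∈ RGD.Sup (WittModel.X M) (RGD.Pos cs (isCartan 2)) := by
    intro a b x hab ex hx g hg hgP
    have hroot : IsRoot cs (isCartan 2) x := (isRoot_iff (cs := cs)).2 ⟨a, b, hab, ex⟩
    refine RGD.le_Sup (S := RGD.Pos cs (isCartan 2)) ⟨hroot, hx⟩ (WittModel.mem_X_of M hg ?_)
    rw [rg_eq Fr hab ex]
    exact hgP
  by_cases ht : t = 0
  · -- the long root case
    subst ht
    have hzZ : z = M.Z i0 p := by
      have h1 : (⟨Fr.X i0 i1 0, M.hX _ _ _⟩ : M.I) = 1 := Subtype.ext (Fr.X_zero i0 i1)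
      rw [hzt]
      unfold Model.X
      rw [h1, map_one, one_mul]
    refine Fu.not_quad hW R hX hz hzc (k := 1) (Fu.toWC.normalizer_of_comm ?_)
    have h1 : nZ Fr i1 p0 * Fr.Z i0 p * (nZ Fr i1 p0)⁻¹ = Fr.Z i0 p := by
      rw [nZ_conj_Z_of_ne Fr i1 p0 hp0 (by decide)]
      congr 1
      apply Frame.Adm.ext
      · rw [refl_w, hw, smul_zero, add_zero]
      · rfl
    have h2 : Nodes.WittRGD.nn Fr p0 1 = nZ Fr i1 p0 := by
      unfold Nodes.WittRGD.nn
      rw [if_neg (by norm_num)]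
    rw [hzZ]
    unfold Model.Z
    rw [← map_mul, ← map_mul]
    congr 1
    apply Subtype.ext
    show Nodes.WittRGD.nn Fr p0 1 * Fr.Z i0 p = Fr.Z i0 p * Nodes.WittRGD.nn Fr p0 1
    rw [h2]
    exact mul_inv_eq_iff_eq_mul.1 h1
  · -- `σ = 1`
    have hmem1 : ∀ s, M.X i0 i1' s ∈ RGD.Sup (WittModel.X M) (RGD.Pos cs (isCartan 2)) := by
      intro s
      refine hU (a := i0) (b := i1') (x := sr 0) (Or.inl (by decide)) ?_ (fun k => ?_) (M.hX _ _ _) ?_
      · rw [ee_sr, bt, nx, dif_pos (by norm_num)]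
        rfl
      · fin_cases k <;> simp [sr]
      · rw [PG_ne Fr (by decide)]
        exact ⟨s, rfl⟩
    have hcomm : ∀ s, M.X i0 i1 t * M.X i0 i1' s = M.X i0 i1' s * M.X i0 i1 t := by
      intro s
      have h1 := hzc _ (hmem1 s)
      have h2 : M.Z i0 p * M.X i0 i1' s = M.X i0 i1' s * M.Z i0 p :=
        (M.commute_ZX (x := i0) (y := i0) (z := i1') (by decide) (by decide) p s).eq
      rw [hzt] at h1
      have h3 : M.X i0 i1' s * M.X i0 i1 t * M.Z i0 p = M.X i0 i1 t * M.X i0 i1' s * M.Z i0 p := by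
        calc M.X i0 i1' s * M.X i0 i1 t * M.Z i0 p = M.X i0 i1' s * (M.X i0 i1 t * M.Z i0 p) := by group
          _ = M.X i0 i1 t * (M.Z i0 p * M.X i0 i1' s) := by rw [h1]; group
          _ = _ := by rw [h2]; group
      exact (mul_right_cancel h3).symm
    have htr : ∀ s, (Frame.Adm.tr (H.σ t * s * (Fr.η (neg i1))⁻¹) : Fr.Adm).c = 0 := by
      intro s
      refine c_eq_zero M ?_
      have h1 := Fr.X_mul_X_same (x := i0) (y := i1) (by decide) t s
      have h2 : M.X i0 i1 t * M.X i0 i1' s = M.Z i0 (Frame.Adm.tr (H.σ t * s * (Fr.η (neg i1))⁻¹)) *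
          (M.X i0 i1' s * M.X i0 i1 t) := by
        unfold Model.X Model.Z
        rw [← map_mul, ← map_mul, ← map_mul]
        exact congrArg M.φ (Subtype.ext h1)
      rw [hcomm s] at h2
      exact (mul_eq_right.1 h2.symm)
    have hσt : H.σ t ≠ 0 := by simpa using ht
    have hη := Fr.η_ne (neg i1)
    have hall : ∀ m : F, m = H.ε⁻¹ * H.σ m := by
      intro m
      have h1 := htr ((H.σ t)⁻¹ * m * Fr.η (neg i1))
      have e : H.σ t * ((H.σ t)⁻¹ * m * Fr.η (neg i1)) * (Fr.η (neg i1))⁻¹ = m := by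
        field_simp
      rw [e, Frame.Adm.tr_c, sub_eq_zero] at h1
      exact h1
    have hε : H.ε = 1 := by
      have h1 := hall 1
      rw [map_one, mul_one] at h1
      rw [← inv_inv H.ε, ← h1, inv_one]
    have hσ : ∀ m, H.σ m = m := by
      intro m
      have h1 := hall m
      rw [hε, inv_one, one_mul] at h1
      exact h1.symm
    obtain ⟨a, ha0, ha1⟩ : ∃ a : F, a ≠ 0 ∧ a ≠ 1 := by
      rcases hq with ⟨m, hm⟩ | h
      · exact absurd (hσ m) hm
      · exact h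
    have h22 : (2 : F) = 0 := CharTwo.two_eq_zero
    -- a torus element
    set p1 : Fr.Adm := Frame.Adm.smul a p0 with hp1
    have hw1 : p1.w = 0 := by rw [hp1, Frame.Adm.smul_w, hw, smul_zero]
    have hc1 : p1.c = a * a * p0.c := by rw [hp1, Frame.Adm.smul_c, hσ]
    have hp10 : p1.c ≠ 0 := by rw [hc1]; exact mul_ne_zero (mul_ne_zero ha0 ha0) hp0
    have hnZ : ∀ q : Fr.Adm, nZ Fr i1 q ∈ M.I := fun q =>
      mul_mem (mul_mem (M.hZ _ _) (M.hZ _ _)) (M.hZ _ _)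
    set kk : V ≃ₗ[F] V := (nZ Fr i1 p1)⁻¹ * nZ Fr i1 p0 with hkk
    have hkkI : kk ∈ M.I := mul_mem (inv_mem (hnZ p1)) (hnZ p0)
    have hkZ : ∀ q, kk * Fr.Z i0 q * kk⁻¹ = Fr.Z i0 q := by
      intro q
      have h1 := nZ_conj_Z_of_ne Fr i1 p0 hp0 (y := i0) (by decide) q
      have h2 := nZ_conj_Z_of_ne Fr i1 p1 hp10 (y := i0) (by decide) q
      have e1 : refl Fr p0 hp0 q = q := by
        apply Frame.Adm.ext
        · rw [refl_w, hw, smul_zero, add_zero]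
        · rfl
      have e2 : refl Fr p1 hp10 q = q := by
        apply Frame.Adm.ext
        · rw [refl_w, hw1, smul_zero, add_zero]
        · rfl
      rw [e1] at h1
      rw [e2] at h2
      calc kk * Fr.Z i0 q * kk⁻¹ = (nZ Fr i1 p1)⁻¹ * (nZ Fr i1 p0 * Fr.Z i0 q * (nZ Fr i1 p0)⁻¹) * nZ Fr i1 p1 := by
            rw [hkk]; group
        _ = (nZ Fr i1 p1)⁻¹ * (nZ Fr i1 p1 * Fr.Z i0 q * (nZ Fr i1 p1)⁻¹) * nZ Fr i1 p1 := by rw [h1, h2]
        _ = _ := by group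
    have hkX : ∀ s, kk * Fr.X i0 i1 s * kk⁻¹ = Fr.X i0 i1 (a * a * s) := by
      intro s
      have h1 := nZ_conj_X Fr i1 p0 hp0 (y := i0) (by decide) s
      have h2 := nZ_conj_X Fr i1 p1 hp10 (y := i0) (by decide) (a * a * s)
      have e : (Fr.η i1)⁻¹ * p1.c⁻¹ * (a * a * s) = (Fr.η i1)⁻¹ * p0.c⁻¹ * s := by
        rw [hc1]
        field_simp
      rw [e] at h2
      calc kk * Fr.X i0 i1 s * kk⁻¹ = (nZ Fr i1 p1)⁻¹ * (nZ Fr i1 p0 * Fr.X i0 i1 s * (nZ Fr i1 p0)⁻¹) * nZ Fr i1 p1 := by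
            rw [hkk]; group
        _ = (nZ Fr i1 p1)⁻¹ * (nZ Fr i1 p1 * Fr.X i0 i1 (a * a * s) * (nZ Fr i1 p1)⁻¹) * nZ Fr i1 p1 := by rw [h1, h2]
        _ = _ := by group
    set g : K := M.φ ⟨kk, hkkI⟩ with hg
    have hgz : g * z * g⁻¹ = M.X i0 i1 (a * a * t) * M.Z i0 p := by
      rw [hzt]
      unfold Model.X Model.Z
      rw [hg, ← map_inv, ← map_mul, ← map_mul, ← map_mul, ← map_mul]
      congr 1
      apply Subtype.ext
      show kk * (Fr.X i0 i1 t * Fr.Z i0 p) * kk⁻¹ = Fr.X i0 i1 (a * a * t) * Fr.Z i0 p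
      calc kk * (Fr.X i0 i1 t * Fr.Z i0 p) * kk⁻¹ = (kk * Fr.X i0 i1 t * kk⁻¹) * (kk * Fr.Z i0 p * kk⁻¹) := by group
        _ = _ := by rw [hkX, hkZ]
    have hXX : ∀ s, M.X i0 i1 s * M.X i0 i1 s = 1 := by
      intro s
      rw [← mX_add, ← two_mul, h22, zero_mul]
      have h1 : (⟨Fr.X i0 i1 0, M.hX _ _ _⟩ : M.I) = 1 := Subtype.ext (Fr.X_zero i0 i1)
      unfold Model.X
      rw [h1, map_one]
    have hZZ : M.Z i0 p * M.Z i0 p = 1 := by
      have h1 := Fu.toWC.sq hz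
      rw [hzt] at h1
      rw [← h1]
      calc M.Z i0 p * M.Z i0 p = (M.X i0 i1 t * M.X i0 i1 t) * (M.Z i0 p * M.Z i0 p) := by rw [hXX, one_mul]
        _ = M.X i0 i1 t * (M.X i0 i1 t * M.Z i0 p) * M.Z i0 p := by group
        _ = M.X i0 i1 t * (M.Z i0 p * M.X i0 i1 t) * M.Z i0 p := by rw [mZX_comm]
        _ = _ := by group
    have hprod : z * (g * z * g⁻¹) = M.X i0 i1 (t + a * a * t) := by
      rw [hgz, mX_add]
      nth_rewrite 1 [hzt]
      calc M.X i0 i1 t * M.Z i0 p * (M.X i0 i1 (a * a * t) * M.Z i0 p) =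
          M.X i0 i1 t * (M.Z i0 p * M.X i0 i1 (a * a * t)) * M.Z i0 p := by group
        _ = M.X i0 i1 t * M.X i0 i1 (a * a * t) * (M.Z i0 p * M.Z i0 p) := by rw [mZX_comm]; group
        _ = _ := by rw [hZZ, mul_one]
    have hne0 : t + a * a * t ≠ 0 := by
      have e : t + a * a * t = (1 + a) * (1 + a) * t := by linear_combination (-(a * t)) * h22
      rw [e]
      have h1a : 1 + a ≠ 0 := by
        intro h3
        apply ha1
        have : a = 1 + a + 1 - 2 := by ring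
        rw [this, h3, h22, zero_add, sub_zero]
      exact mul_ne_zero (mul_ne_zero h1a h1a) ht
    -- `g` normalises `U`
    have R1 := rgdC_model M hA hp10 cs
    have hnn : ∀ q : Fr.Adm, Nodes.WittRGD.nn Fr q 1 = nZ Fr i1 q := by
      intro q
      unfold Nodes.WittRGD.nn
      rw [if_neg (by norm_num)]
    have hcj : ∀ x, IsRoot cs (isCartan 2) x → cj g (WittModel.X M x) = WittModel.X M x := by
      intro x hx
      have e : g = (M.φ ⟨Nodes.WittRGD.nn Fr p1 1, nn_mem hA p1 1⟩)⁻¹ * M.φ ⟨Nodes.WittRGD.nn Fr p0 1, nn_mem hA p0 1⟩ := by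
        rw [hg, ← map_inv, ← map_mul]
        exact congrArg M.φ (Subtype.ext (by
          show kk = (Nodes.WittRGD.nn Fr p1 1)⁻¹ * Nodes.WittRGD.nn Fr p0 1
          rw [hnn, hnn]))
      have h1 := R.conj 1 x hx
      have h2 := R1.conj 1 x hx
      rw [e, cj_mul, h1, ← h2, cj_inv_cj]
    have hcU : cj g (RGD.Sup (WittModel.X M) (RGD.Pos cs (isCartan 2))) =
        RGD.Sup (WittModel.X M) (RGD.Pos cs (isCartan 2)) := by
      rw [RGD.cj_Sup]
      unfold RGD.Sup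
      exact iSup_congr fun x => hcj x.1 x.2.1
    have hgzc : ∀ u ∈ RGD.Sup (WittModel.X M) (RGD.Pos cs (isCartan 2)), u * (g * z * g⁻¹) = g * z * g⁻¹ * u := by
      intro u hu
      rw [← hcU, mem_cj] at hu
      have h1 := hzc _ hu
      calc u * (g * z * g⁻¹) = g * (g⁻¹ * u * g * z) * g⁻¹ := by group
        _ = g * (z * (g⁻¹ * u * g)) * g⁻¹ := by rw [h1]
        _ = _ := by group
    have hcz : Commute z (g * z * g⁻¹) := hgzc z hzU
    have hnz : z ≠ g * z * g⁻¹ := by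
      intro h1
      rw [← h1, Fu.toWC.sq hz] at hprod
      exact hne0 (t_eq_zero M hprod.symm)
    have hz' : z * (g * z * g⁻¹) ∈ D := Fu.mul z hz _ (Fu.conj z hz g) hnz hcz
    refine Fu.not_quad hW R hX hz' (fun u hu => ?_) (k := 0) (Fu.toWC.normalizer_of_comm ?_)
    · calc u * (z * (g * z * g⁻¹)) = (u * z) * (g * z * g⁻¹) := by group
        _ = z * (u * (g * z * g⁻¹)) := by rw [hzc u hu]; group
        _ = _ := by rw [hgzc u hu]; group
    · rw [hprod]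
      have h2 : Nodes.WittRGD.nn Fr p0 0 = nX Fr i0 i1' 1 := by
        unfold Nodes.WittRGD.nn
        rw [if_pos (by norm_num), nx, dif_pos (by norm_num)]
        try rfl
      have h1 := nX_conj_Y Fr (x := i0) (y := i1') (by decide) (t := 1) one_ne_zero (t + a * a * t)
      have h3 : H.ε⁻¹ * Fr.η (neg i1') ^ 2 * 1 * (H.σ 1)⁻¹ * H.σ (t + a * a * t) = t + a * a * t := by
        have h4 : Fr.η (neg i1') = 1 := by
          show (if (neg i1').2 then H.ε else 1) = 1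
          rw [hε, ite_self]
        rw [h4, hε, hσ, hσ]
        ring
      rw [h3] at h1
      unfold Model.X
      rw [← map_mul, ← map_mul]
      congr 1
      apply Subtype.ext
      show Nodes.WittRGD.nn Fr p0 0 * Fr.X i0 i1 (t + a * a * t) = Fr.X i0 i1 (t + a * a * t) * Nodes.WittRGD.nn Fr p0 0
      rw [h2]
      exact mul_inv_eq_iff_eq_mul.1 h1

end

open Cfsg.Agent.Nodes.WittU Cfsg.Agent.Nodes.WittInst

theorem exists_pow_ne {F : Type*} [Field F] [Fintype F] {q : ℕ} (hF : Fintype.card F = q ^ 2) : ∃ m : F, m ^ q ≠ m := by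
  classical
  by_contra hcon
  push Not at hcon
  have h1 : 1 < q := by
    have := Fintype.one_lt_card (α := F)
    rw [hF] at this
    by_contra h2
    have : q = 0 ∨ q = 1 := by omega
    rcases this with rfl | rfl <;> simp at *
  have h2 : (Finset.univ : Finset F) ⊆ (Polynomial.X ^ q - Polynomial.X : Polynomial F).roots.toFinset := by
    intro x _
    rw [Multiset.mem_toFinset, Polynomial.mem_roots (FiniteField.X_pow_card_sub_X_ne_zero F h1)]
    simp [hcon x]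
  have h3 := Finset.card_le_card h2
  have h4 := Multiset.toFinset_card_le (Polynomial.X ^ q - Polynomial.X : Polynomial F).roots
  have h5 := Polynomial.card_roots' (Polynomial.X ^ q - Polynomial.X : Polynomial F)
  rw [FiniteField.X_pow_card_sub_X_natDegree_eq F h1] at h5
  rw [Finset.card_univ, hF] at h3
  nlinarith

theorem Full.not_PSU {G : Type*} [Group G] [Finite G] [IsSimpleGroup G] {D : Set G} (Fu : Full D) {F : Type*} [Field F]
    [Fintype F] [CharP F 2] {N q : ℕ} (hF : Fintype.card F = q ^ 2) (hN : N = 4 ∨ N = 5) (e : G ≃* PSU N F q) :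
    False := by
  have hfact : Fact (Nat.Prime 2) := ⟨Nat.prime_two⟩
  have hm : N = 2 * 2 ∨ N = 2 * 2 + 1 := hN
  obtain ⟨W, -⟩ := exists_wframe hF hm
  obtain ⟨p0, hp0, hw⟩ := exists_adm hF W
  have : IsSimpleGroup (PSU N F q) := e.symm.isSimpleGroup
  have : Finite (PSU N F q) := Finite.of_equiv _ e.toEquiv
  obtain ⟨m, hm'⟩ := exists_pow_ne hF
  exact Full.not_witt_two (KInstU.model hF (by omega) W) (Fu.map_equiv e) (AmbT.of_amb (amb_U hF W) 2) hp0 hw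
    (Or.inl ⟨m, hm'⟩)

theorem Full.not_PSp {G : Type*} [Group G] [Finite G] [IsSimpleGroup G] {D : Set G} (Fu : Full D) {F : Type*} [Field F]
    [Fintype F] [CharP F 2] (hF : 3 ≤ Fintype.card F) (e : G ≃* PSp 2 F) : False := by
  have hfact : Fact (Nat.Prime 2) := ⟨Nat.prime_two⟩
  have : IsSimpleGroup (PSp 2 F) := e.symm.isSimpleGroup
  have : Finite (PSp 2 F) := Finite.of_equiv _ e.toEquiv
  obtain ⟨a, ha⟩ : ∃ a : F, a ≠ 0 ∧ a ≠ 1 := by
    classical
    by_contra hcon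
    push Not at hcon
    have h1 : (Finset.univ : Finset F) ⊆ {0, 1} := by
      intro x _
      rw [Finset.mem_insert, Finset.mem_singleton]
      by_cases hx : x = 0
      · exact Or.inl hx
      · exact Or.inr (hcon x hx)
    have h2 := Finset.card_le_card h1
    have h3 := Finset.card_le_two (a := (0 : F)) (b := 1)
    rw [Finset.card_univ] at h2
    omega
  exact Full.not_witt_two (KInstSp.model 2 F) (Fu.map_equiv e) (AmbT.of_amb amb_Sp 2) (p0 := SpIdent.adm 1)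
    one_ne_zero rfl (Or.inr ⟨a, ha⟩)

end Cfsg.Agent.H204.RI
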